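import Mathlib.GroupTheory.QuotientGroup.Basic
import Mathlib.GroupTheory.Index
import Mathlib.GroupTheory.GroupAction.ConjAct
import Mathlib.GroupTheory.GroupAction.Quotient
import Mathlib.Algebra.Order.BigOperators.Group.Finset
import Mathlib.Algebra.Group.Subgroup.Finite
import Mathlib.Data.Set.Card
import Mathlib.Data.SetLike.Fintype
import Mathlib.GroupTheory.OrderOfElement
import Mathlib.Data.Set.Finite.Lemmas
import Mathlib.Tactic.Group
import Mathlib.Tactic.Ring
import Mathlib.Tactic.Positivity
import Mathlib.Tactic.Linarith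

/-!
# Jordan's counting argument

A finite group in which every non-central element has a centralizer with an abelian normal
subgroup of small index, and in which abelian subgroups have small rank and small automizers, has
an abelian normal subgroup of small index.
-/

set_option autoImplicit false

namespace CfsgLib.ModularJordan

universe u

open Pointwise

variable {G : Type u} [Group G]

/-- An abelian subgroup of order prime to `p` containing the centre. -/
def Nice (p : ℕ) (A : Subgroup G) : Prop :=
  Subgroup.center G ≤ A ∧ (∀ a ∈ A, ∀ b ∈ A, a * b = b * a) ∧ (Nat.card A).Coprime p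

/-- The hypotheses of the counting argument. -/
structure Hyp (G : Type u) [Group G] (p b n F : ℕ) : Prop where
  b_pos : 1 ≤ b
  n_pos : 1 ≤ n
  center_coprime : (Nat.card (Subgroup.center G)).Coprime p
  cent : ∀ x : G, x ∉ Subgroup.center G → ∃ B : Subgroup G, Nice p B ∧
    B ≤ Subgroup.centralizer {x} ∧
    (∀ g ∈ Subgroup.centralizer ({x} : Set G), ∀ y ∈ B, g * y * g⁻¹ ∈ B) ∧
    Nat.card (Subgroup.centralizer ({x} : Set G)) ≤ b * Nat.card B
  torsion : ∀ A : Subgroup G, Nice p A → ∀ r : ℕ, 0 < r →
    Set.ncard {a : G | a ∈ A ∧ a ^ r = 1} ≤ r ^ n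
  norm : ∀ A : Subgroup G, Nice p A →
    Nat.card (Subgroup.normalizer (A : Set G)) ≤ F * Nat.card (Subgroup.centralizer (A : Set G))
  comm : ∀ x : G, Nat.card ((Subgroup.centralizer
      {(x : G ⧸ Subgroup.center G)}).comap (QuotientGroup.mk' (Subgroup.center G))) ≤
    n * Nat.card (Subgroup.centralizer ({x} : Set G))

/-- Two subgroups share a non-central element. -/
def Meet (A B : Subgroup G) : Prop := ∃ x, x ∈ A ∧ x ∈ B ∧ x ∉ Subgroup.center G

theorem Meet.symm {A B : Subgroup G} (h : Meet A B) : Meet B A := by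
  obtain ⟨x, h1, h2, h3⟩ := h
  exact ⟨x, h2, h1, h3⟩

variable [Finite G]

theorem meet_of_card {A B : Subgroup G}
    (h : Nat.card (Subgroup.center G) < Nat.card (A ⊓ B : Subgroup G)) : Meet A B := by
  by_contra hn
  refine absurd h (not_lt.2 (Subgroup.card_le_of_le ?_))
  intro x hx
  by_contra hz
  exact hn ⟨x, hx.1, hx.2, hz⟩

theorem card_eq_relIndex_mul (A B : Subgroup G) :
    Nat.card A = B.relIndex A * Nat.card (B ⊓ A : Subgroup G) := by
  have h1 : Nat.card (B.subgroupOf A) = Nat.card (B ⊓ A : Subgroup G) := by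
    rw [← Subgroup.card_map_of_injective A.subtype_injective (K := B.subgroupOf A)]
    congr 1
    rw [Subgroup.subgroupOf_map_subtype]
  rw [← h1, Subgroup.relIndex, Subgroup.index_mul_card]

/-- A subgroup of an overgroup in which `B` has small index meets `B` largely. -/
theorem card_le_mul_inf {A B C : Subgroup G} (hA : A ≤ C) (hB : B ≤ C) {b : ℕ}
    (h : Nat.card C ≤ b * Nat.card B) : Nat.card A ≤ b * Nat.card (A ⊓ B : Subgroup G) := by
  have h1 : B.relIndex C * Nat.card B = Nat.card C := by
    conv_rhs => rw [card_eq_relIndex_mul C B]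
    rw [inf_eq_left.2 hB]
  have h2 : B.relIndex C ≤ b := by
    rw [← h1] at h
    exact Nat.le_of_mul_le_mul_right h Nat.card_pos
  have h3 : B.relIndex A ≤ B.relIndex C :=
    Subgroup.relIndex_le_of_le_right hA Subgroup.index_ne_zero_of_finite
  rw [card_eq_relIndex_mul A B, inf_comm]
  exact Nat.mul_le_mul_right _ (h3.trans h2)

theorem card_le_mul_inf_of_le {A B D : Subgroup G} (hD : D ≤ A) {b : ℕ}
    (h : Nat.card A ≤ b * Nat.card (A ⊓ B : Subgroup G)) :
    Nat.card D ≤ b * Nat.card (D ⊓ B : Subgroup G) := by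
  have h2 : B.relIndex A ≤ b := by
    rw [card_eq_relIndex_mul A B, inf_comm] at h
    exact Nat.le_of_mul_le_mul_right h Nat.card_pos
  have h3 : B.relIndex D ≤ B.relIndex A :=
    Subgroup.relIndex_le_of_le_right hD Subgroup.index_ne_zero_of_finite
  rw [card_eq_relIndex_mul D B, inf_comm]
  exact Nat.mul_le_mul_right _ (h3.trans h2)

theorem le_centralizer_of_mem {A : Subgroup G} (hA : ∀ a ∈ A, ∀ b ∈ A, a * b = b * a) {x : G}
    (hx : x ∈ A) : A ≤ Subgroup.centralizer {x} := fun a ha =>
  Subgroup.mem_centralizer_singleton_iff.2 (hA a ha x hx)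

section

variable (p b n : ℕ)

/-- The factorial used as exponent. -/
def expR : ℕ := (b * b).factorial

/-- The index of the canonical subgroup. -/
def idxE : ℕ := expR b ^ n

/-- The size of a big subgroup. -/
def bigC : ℕ := b * b * b * b * b * idxE b n + 2

/-- The maximal big abelian subgroups. -/
def Member (T : Subgroup G) : Prop :=
  Nice p T ∧ bigC b n * Nat.card (Subgroup.center G) < Nat.card T ∧
    ∀ A : Subgroup G, Nice p A → Meet A T → Nat.card A ≤ Nat.card T

/-- The canonical subgroup attached to a maximal big abelian subgroup. -/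
def core (T : Subgroup G) : Subgroup G :=
  ⨅ T' ∈ {T' : Subgroup G | Member p b n T' ∧ Meet T' T}, T'

theorem mem_core {T : Subgroup G} {x : G} :
    x ∈ core p b n T ↔ ∀ T' : Subgroup G, Member p b n T' → Meet T' T → x ∈ T' := by
  simp only [core, Subgroup.mem_iInf, Set.mem_setOf_eq]
  exact ⟨fun h T' h1 h2 => h T' ⟨h1, h2⟩, fun h T' h1 => h T' h1.1 h1.2⟩

end

variable {p b n F : ℕ}

omit [Finite G] in
theorem one_le_idxE : 1 ≤ idxE b n := Nat.one_le_pow _ _ (Nat.factorial_pos _)

omit [Finite G] in
theorem bigC_bounds (hb : 1 ≤ b) : 2 ≤ bigC b n ∧ b ≤ bigC b n ∧ b * b * b * b ≤ bigC b n ∧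
    b * b * b * b * b ≤ bigC b n ∧ idxE b n ≤ bigC b n := by
  have h5 : b * b * b * b * b ≤ bigC b n := by
    have := Nat.le_mul_of_pos_right (b * b * b * b * b) (one_le_idxE (b := b) (n := n))
    unfold bigC; omega
  have h4 : b * b * b * b ≤ bigC b n := (Nat.le_mul_of_pos_right _ hb).trans h5
  have h1 : b ≤ bigC b n :=
    ((Nat.le_mul_of_pos_right b hb).trans ((Nat.le_mul_of_pos_right _ hb).trans
      (Nat.le_mul_of_pos_right _ hb))).trans h4
  refine ⟨by unfold bigC; omega, h1, h4, h5, ?_⟩
  have := Nat.le_mul_of_pos_left (idxE b n) (show 0 < b * b * b * b * b by positivity)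
  unfold bigC; omega

theorem Hyp.card_le (H : Hyp G p b n F) {T A : Subgroup G} (hT : Member p b n T) (hA : Nice p A)
    (hm : Meet A T) : Nat.card A ≤ b * b * Nat.card (A ⊓ T : Subgroup G) := by
  obtain ⟨x, hxA, hxT, hxZ⟩ := hm
  obtain ⟨B, hB, hBC, -, hCB⟩ := H.cent x hxZ
  have h1 := card_le_mul_inf (le_centralizer_of_mem hA.2.1 hxA) hBC hCB
  have h2 := card_le_mul_inf (le_centralizer_of_mem hT.1.2.1 hxT) hBC hCB
  have hb := bigC_bounds (n := n) H.b_pos
  have hmeet : Meet B T := by
    refine (meet_of_card ?_).symm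
    have := hT.2.1
    by_contra hle
    push Not at hle
    have h3 := h2.trans (Nat.mul_le_mul_left b hle)
    have h4 := Nat.mul_le_mul_right (Nat.card (Subgroup.center G)) hb.2.1
    omega
  have h3 : Nat.card B ≤ b * Nat.card (B ⊓ T : Subgroup G) := by
    rw [inf_comm]
    exact (hT.2.2 B hB hmeet).trans h2
  have h4 := card_le_mul_inf_of_le (D := A ⊓ B) inf_le_right h3
  calc Nat.card A ≤ b * Nat.card (A ⊓ B : Subgroup G) := h1
    _ ≤ b * (b * Nat.card (A ⊓ B ⊓ T : Subgroup G)) := Nat.mul_le_mul_left b h4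
    _ ≤ b * b * Nat.card (A ⊓ T : Subgroup G) := by
      rw [mul_assoc]
      exact Nat.mul_le_mul_left b (Nat.mul_le_mul_left b
        (Subgroup.card_le_of_le (inf_le_inf_right T inf_le_left)))

/-- Two subgroups meeting a member largely meet each other. -/
theorem Hyp.meet_of_meet (H : Hyp G p b n F) {T A D : Subgroup G} (hA : Nice p A)
    (hbig : b * b * b * b * Nat.card (Subgroup.center G) < Nat.card A)
    (h1 : Nat.card A ≤ b * b * Nat.card (A ⊓ T : Subgroup G))
    (h2 : Nat.card T ≤ b * b * Nat.card (T ⊓ D : Subgroup G)) : Meet A D := by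
  have h3 := card_le_mul_inf_of_le (D := A ⊓ T) inf_le_right h2
  refine meet_of_card ?_
  by_contra hle
  push Not at hle
  have h4 : Nat.card (A ⊓ T ⊓ D : Subgroup G) ≤ Nat.card (Subgroup.center G) :=
    (Subgroup.card_le_of_le (inf_le_inf_right D inf_le_left)).trans hle
  have h5 := h1.trans (Nat.mul_le_mul_left (b * b) (h3.trans (Nat.mul_le_mul_left (b * b) h4)))
  rw [← mul_assoc, show b * b * (b * b) = b * b * b * b by ring] at h5
  omega

theorem Member.big (H : Hyp G p b n F) {T : Subgroup G} (hT : Member p b n T) :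
    b * b * b * b * Nat.card (Subgroup.center G) < Nat.card T :=
  (Nat.mul_le_mul_right _ (bigC_bounds H.b_pos).2.2.1).trans_lt hT.2.1

theorem Member.meet_self (H : Hyp G p b n F) {T : Subgroup G} (hT : Member p b n T) : Meet T T := by
  refine meet_of_card ?_
  rw [inf_idem]
  refine lt_of_le_of_lt ?_ (hT.big H)
  exact Nat.le_mul_of_pos_left _ (by have := H.b_pos; positivity)

theorem Hyp.meet_trans (H : Hyp G p b n F) {T T' T'' : Subgroup G} (hT : Member p b n T)
    (hT' : Member p b n T') (hT'' : Member p b n T'') (h : Meet T T') (h' : Meet T' T'') :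
    Meet T T'' :=
  H.meet_of_meet hT.1 (hT.big H) (H.card_le hT' hT.1 h) (H.card_le hT'' hT'.1 h')

theorem Hyp.core_eq (H : Hyp G p b n F) {T T' : Subgroup G} (hT : Member p b n T)
    (hT' : Member p b n T') (h : Meet T T') : core p b n T = core p b n T' := by
  ext x
  rw [mem_core, mem_core]
  exact ⟨fun hx S hS hm => hx S hS (H.meet_trans hS hT' hT hm h.symm),
    fun hx S hS hm => hx S hS (H.meet_trans hS hT hT' hm h)⟩

theorem Hyp.core_le (H : Hyp G p b n F) {T : Subgroup G} (hT : Member p b n T) :
    core p b n T ≤ T := fun _ hx => (mem_core p b n).1 hx T hT (hT.meet_self H)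

theorem Hyp.core_nice (H : Hyp G p b n F) {T : Subgroup G} (hT : Member p b n T) :
    Nice p (core p b n T) :=
  ⟨fun x hx => (mem_core p b n).2 fun S hS _ => hS.1.1 hx,
    fun x hx y hy => hT.1.2.1 x (H.core_le hT hx) y (H.core_le hT hy),
    hT.1.2.2.coprime_dvd_left (Subgroup.card_dvd_of_le (H.core_le hT))⟩

theorem Hyp.card_le_core (H : Hyp G p b n F) {T : Subgroup G} (hT : Member p b n T) :
    Nat.card T ≤ idxE b n * Nat.card (core p b n T) := by
  set R := expR b with hR
  let φ : T →* G :=
    { toFun := fun t => (t : G) ^ R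
      map_one' := by simp
      map_mul' := fun s t => by
        rw [Subgroup.coe_mul, (show Commute (s : G) t from hT.1.2.1 s s.2 t t.2).mul_pow] }
  have hker : Nat.card φ.ker ≤ idxE b n := by
    have h1 := H.torsion T hT.1 R (Nat.factorial_pos _)
    refine le_trans ?_ h1
    rw [← Nat.card_coe_set_eq]
    exact Nat.card_le_card_of_injective
      (fun t => ⟨((t : T) : G), (t : T).2, t.2⟩)
      fun s t hst => Subtype.ext (Subtype.ext (congrArg (fun z : {a : G | a ∈ T ∧ a ^ R = 1} => (z : G)) hst))
  have hrange : φ.range ≤ core p b n T := by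
    rintro _ ⟨t, rfl⟩
    refine (mem_core p b n).2 fun S hS hm => ?_
    haveI : (S.subgroupOf T).Normal := ⟨fun x hx g => by
      rw [show g * x * g⁻¹ = x from Subtype.ext (by
        simp only [Subgroup.coe_mul, Subgroup.coe_inv]
        rw [hT.1.2.1 g g.2 x x.2, mul_inv_cancel_right])]
      exact hx⟩
    have hidx : S.relIndex T ≤ b * b := by
      have := H.card_le hS hT.1 hm.symm
      rw [card_eq_relIndex_mul T S, inf_comm] at this
      exact Nat.le_of_mul_le_mul_right this Nat.card_pos
    obtain ⟨c, hc⟩ : S.relIndex T ∣ R := Nat.dvd_factorial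
      (Nat.pos_of_ne_zero Subgroup.index_ne_zero_of_finite) hidx
    have h2 : t ^ (S.subgroupOf T).index ∈ S.subgroupOf T := Subgroup.pow_index_mem _ t
    have h3 : t ^ R ∈ S.subgroupOf T := by
      rw [hc, pow_mul]; exact Subgroup.pow_mem _ h2 c
    exact h3
  rw [← φ.ker.index_mul_card, Subgroup.index_ker, mul_comm (idxE b n)]
  exact Nat.mul_le_mul (Subgroup.card_le_of_le hrange) hker

theorem Hyp.lt_core (H : Hyp G p b n F) {T : Subgroup G} (hT : Member p b n T) :
    Nat.card (Subgroup.center G) < Nat.card (core p b n T) := by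
  by_contra hle
  push Not at hle
  have h1 := (H.card_le_core hT).trans (Nat.mul_le_mul_left _ hle)
  have h2 := Nat.mul_le_mul_right (Nat.card (Subgroup.center G)) (bigC_bounds (n := n) H.b_pos).2.2.2.2
  have := hT.2.1
  omega

theorem Hyp.card_normalizer (H : Hyp G p b n F) {T : Subgroup G} (hT : Member p b n T) :
    Nat.card (Subgroup.normalizer (core p b n T : Set G)) ≤
      F * b * idxE b n * Nat.card (core p b n T) := by
  obtain ⟨x, hx, hxZ⟩ : ∃ x ∈ core p b n T, x ∉ Subgroup.center G := by
    by_contra h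
    push Not at h
    exact absurd (H.lt_core hT) (not_lt.2 (Subgroup.card_le_of_le fun y hy => h y hy))
  obtain ⟨B, hB, hBC, -, hCB⟩ := H.cent x hxZ
  have h2 := card_le_mul_inf (le_centralizer_of_mem hT.1.2.1 (H.core_le hT hx)) hBC hCB
  have hmeet : Meet B T := by
    refine (meet_of_card ?_).symm
    have := hT.2.1
    by_contra hle
    push Not at hle
    have h3 := h2.trans (Nat.mul_le_mul_left b hle)
    have h4 := Nat.mul_le_mul_right (Nat.card (Subgroup.center G)) (bigC_bounds (n := n) H.b_pos).2.1
    omega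
  have hC : Subgroup.centralizer (core p b n T : Set G) ≤ Subgroup.centralizer {x} :=
    Subgroup.centralizer_le (Set.singleton_subset_iff.2 hx)
  calc Nat.card (Subgroup.normalizer (core p b n T : Set G))
      ≤ F * Nat.card (Subgroup.centralizer (core p b n T : Set G)) := H.norm _ (H.core_nice hT)
    _ ≤ F * (b * Nat.card T) := Nat.mul_le_mul_left F (((Subgroup.card_le_of_le hC).trans hCB).trans
        (Nat.mul_le_mul_left b (hT.2.2 B hB hmeet)))
    _ ≤ F * (b * (idxE b n * Nat.card (core p b n T))) :=
        Nat.mul_le_mul_left F (Nat.mul_le_mul_left b (H.card_le_core hT))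
    _ = F * b * idxE b n * Nat.card (core p b n T) := by ring

/-! ### Conjugation -/

omit [Finite G] in
theorem mem_map_conj {A : Subgroup G} {g x : G} :
    x ∈ A.map (MulAut.conj g).toMonoidHom ↔ g⁻¹ * x * g ∈ A := by
  constructor
  · rintro ⟨y, hy, rfl⟩
    simpa [mul_assoc] using hy
  · intro h
    exact ⟨g⁻¹ * x * g, h, by simp [mul_assoc]⟩

omit [Finite G] in
theorem center_conj_iff {g x : G} :
    g * x * g⁻¹ ∈ Subgroup.center G ↔ x ∈ Subgroup.center G := by
  constructor
  · intro h
    have := (Subgroup.center G).mul_mem h (Subgroup.one_mem _)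
    have h2 := Subgroup.mem_center_iff.1 h g
    rw [show x = g * x * g⁻¹ from by
      have : g * (g * x * g⁻¹) = g * x * g⁻¹ * g := h2
      rw [inv_mul_cancel_right] at this
      exact (mul_left_cancel this).symm]
    exact h
  · intro h
    rw [Subgroup.mem_center_iff.1 h g, mul_inv_cancel_right]
    exact h

omit [Finite G] in
theorem Nice.map_conj {A : Subgroup G} (hA : Nice p A) (g : G) :
    Nice p (A.map (MulAut.conj g).toMonoidHom) := by
  refine ⟨fun x hx => mem_map_conj.2 (hA.1 ?_), ?_, ?_⟩
  · rw [Subgroup.mem_center_iff.1 hx g⁻¹, inv_mul_cancel_right]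
    exact hx
  · intro a ha c hc
    have := hA.2.1 _ (mem_map_conj.1 ha) _ (mem_map_conj.1 hc)
    calc a * c = g * (g⁻¹ * a * g * (g⁻¹ * c * g)) * g⁻¹ := by group
      _ = g * (g⁻¹ * c * g * (g⁻¹ * a * g)) * g⁻¹ := by rw [this]
      _ = c * a := by group
  · rw [Subgroup.card_map_of_injective (MulAut.conj g).injective]
    exact hA.2.2

omit [Finite G] in
theorem Meet.map_conj {A B : Subgroup G} (h : Meet A B) (g : G) :
    Meet (A.map (MulAut.conj g).toMonoidHom) (B.map (MulAut.conj g).toMonoidHom) := by
  obtain ⟨x, h1, h2, h3⟩ := h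
  refine ⟨g * x * g⁻¹, ⟨x, h1, rfl⟩, ⟨x, h2, rfl⟩, fun h => h3 (center_conj_iff.1 h)⟩

omit [Finite G] in
theorem map_conj_inv (A : Subgroup G) (g : G) :
    (A.map (MulAut.conj g).toMonoidHom).map (MulAut.conj g⁻¹).toMonoidHom = A := by
  ext x
  rw [mem_map_conj, mem_map_conj]
  simp [mul_assoc]

theorem Member.map_conj {T : Subgroup G} (hT : Member p b n T) (g : G) :
    Member p b n (T.map (MulAut.conj g).toMonoidHom) := by
  refine ⟨hT.1.map_conj g, ?_, fun A hA hm => ?_⟩
  · rw [Subgroup.card_map_of_injective (MulAut.conj g).injective]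
    exact hT.2.1
  · have h1 := hT.2.2 _ (hA.map_conj g⁻¹) (by
      have := hm.map_conj g⁻¹
      rwa [map_conj_inv] at this)
    rw [Subgroup.card_map_of_injective (MulAut.conj g⁻¹).injective] at h1
    rwa [Subgroup.card_map_of_injective (MulAut.conj g).injective]

theorem core_map_conj (T : Subgroup G) (g : G) :
    core p b n (T.map (MulAut.conj g).toMonoidHom) =
      (core p b n T).map (MulAut.conj g).toMonoidHom := by
  ext x
  rw [mem_map_conj, mem_core, mem_core]
  constructor
  · intro h S hS hm
    have := h _ (hS.map_conj g) (hm.map_conj g)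
    exact mem_map_conj.1 this
  · intro h S hS hm
    have h1 := hm.map_conj g⁻¹
    rw [map_conj_inv] at h1
    have h2 := mem_map_conj.1 (h _ (hS.map_conj g⁻¹) h1)
    simpa [mul_assoc] using h2

omit [Finite G] in
theorem normalizer_map_conj (E : Subgroup G) (g x : G) :
    x ∈ Subgroup.normalizer (E.map (MulAut.conj g).toMonoidHom : Set G) ↔
      g⁻¹ * x * g ∈ Subgroup.normalizer (E : Set G) := by
  rw [Subgroup.mem_normalizer_iff, Subgroup.mem_normalizer_iff]
  constructor
  · intro h y
    have := h (g * y * g⁻¹)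
    rw [mem_map_conj, mem_map_conj] at this
    simpa [mul_assoc] using this
  · intro h y
    rw [mem_map_conj, mem_map_conj]
    have := h (g⁻¹ * y * g)
    simpa [mul_assoc] using this

/-! ### The pieces of the class equation -/

variable (p b n) in
/-- The family of canonical subgroups. -/
def family : Set (Subgroup G) := {E | ∃ T, Member p b n T ∧ core p b n T = E}

variable (b n) in
/-- The threshold defining the elements attached to a canonical subgroup. -/
def attC : ℕ := b * b * b * b * b + bigC b n

variable (b n) in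
/-- The elements attached to `E`. -/
def attached (E : Subgroup G) : Set G :=
  {x | x ∈ Subgroup.normalizer (E : Set G) ∧
    attC b n * Nat.card (Subgroup.center G) <
      Nat.card (E ⊓ Subgroup.centralizer {x} : Subgroup G)}

variable (b n) in
/-- The centralizer bound outside the attached elements. -/
def smallK : ℕ := b * (b * b) * idxE b n * attC b n

theorem Hyp.exists_attached (H : Hyp G p b n F) {x : G} (hx : x ∉ Subgroup.center G)
    (hbig : smallK b n * Nat.card (Subgroup.center G) <
      Nat.card (Subgroup.centralizer ({x} : Set G))) :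
    ∃ E ∈ family p b n, x ∈ attached b n E ∧
      Subgroup.centralizer ({x} : Set G) ≤ Subgroup.normalizer (E : Set G) := by
  classical
  have hb := H.b_pos
  obtain ⟨B, hB, hBC, hBn, hCB⟩ := H.cent x hx
  have hz1 : 0 < (Nat.card (Subgroup.center G)) := Nat.card_pos
  have hBbig : b * b * idxE b n * attC b n * (Nat.card (Subgroup.center G)) < Nat.card B := by
    by_contra hle
    push Not at hle
    have := hCB.trans (Nat.mul_le_mul_left b hle)
    have h2 : smallK b n * (Nat.card (Subgroup.center G)) = b * (b * b * idxE b n * attC b n * (Nat.card (Subgroup.center G))) := by unfold smallK; ring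
    omega
  have hatt : b * b * b * b ≤ attC b n ∧ bigC b n ≤ attC b n := by
    have h5 : b * b * b * b ≤ b * b * b * b * b := Nat.le_mul_of_pos_right _ hb
    unfold attC; omega
  have hmul : attC b n ≤ b * b * idxE b n * attC b n :=
    Nat.le_mul_of_pos_left _ (Nat.mul_pos (Nat.mul_pos hb hb) one_le_idxE)
  have hBc : bigC b n * (Nat.card (Subgroup.center G)) < Nat.card B :=
    (Nat.mul_le_mul_right (Nat.card (Subgroup.center G)) (hatt.2.trans hmul)).trans_lt hBbig
  have hB4 : b * b * b * b * (Nat.card (Subgroup.center G)) < Nat.card B :=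
    (Nat.mul_le_mul_right (Nat.card (Subgroup.center G)) (hatt.1.trans hmul)).trans_lt hBbig
  have hBz : (Nat.card (Subgroup.center G)) < Nat.card B := by
    have := Nat.le_mul_of_pos_left (Nat.card (Subgroup.center G)) (show 0 < b * b * b * b by positivity)
    omega
  -- a member meeting `B`
  obtain ⟨T, ⟨hTn, hTm⟩, hTmax⟩ := Set.exists_max_image
    {A : Subgroup G | Nice p A ∧ Meet A B} (fun A => Nat.card A) (Set.toFinite _)
    ⟨B, hB, meet_of_card (by rwa [inf_idem])⟩
  have hBT : Nat.card B ≤ Nat.card T := hTmax B ⟨hB, meet_of_card (by rwa [inf_idem])⟩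
  have hTbig : bigC b n * (Nat.card (Subgroup.center G)) < Nat.card T := hBc.trans_le hBT
  have key : ∀ y, y ∈ T → y ∉ Subgroup.center G → ∀ B' : Subgroup G,
      B' ≤ Subgroup.centralizer {y} →
      Nat.card (Subgroup.centralizer ({y} : Set G)) ≤ b * Nat.card B' →
      Nat.card T ≤ b * Nat.card (T ⊓ B' : Subgroup G) := fun y hy hyZ B' h1 h2 =>
    card_le_mul_inf (le_centralizer_of_mem hTn.2.1 hy) h1 h2
  have hBTi : Nat.card B ≤ b * b * Nat.card (B ⊓ T : Subgroup G) := by
    obtain ⟨y, hyT, hyB, hyZ⟩ := hTm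
    obtain ⟨B', hB', hB'C, -, hCB'⟩ := H.cent y hyZ
    have h1 := card_le_mul_inf (le_centralizer_of_mem hB.2.1 hyB) hB'C hCB'
    have h2 := key y hyT hyZ B' hB'C hCB'
    have hm : Meet B' B := by
      refine (meet_of_card ?_).symm
      by_contra hle
      push Not at hle
      have h3 := h1.trans (Nat.mul_le_mul_left b hle)
      have h4 := Nat.mul_le_mul_right (Nat.card (Subgroup.center G)) (show b ≤ b * b * b * b from
        (Nat.le_mul_of_pos_right b hb).trans ((Nat.le_mul_of_pos_right _ hb).trans
          (Nat.le_mul_of_pos_right _ hb)))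
      omega
    have h3 : Nat.card B' ≤ b * Nat.card (B' ⊓ T : Subgroup G) := by
      rw [inf_comm]
      exact (hTmax B' ⟨hB', hm⟩).trans h2
    have h4 := card_le_mul_inf_of_le (D := B ⊓ B') inf_le_right h3
    calc Nat.card B ≤ b * Nat.card (B ⊓ B' : Subgroup G) := h1
      _ ≤ b * (b * Nat.card (B ⊓ B' ⊓ T : Subgroup G)) := Nat.mul_le_mul_left b h4
      _ ≤ b * b * Nat.card (B ⊓ T : Subgroup G) := by
        rw [mul_assoc]
        exact Nat.mul_le_mul_left b (Nat.mul_le_mul_left b
          (Subgroup.card_le_of_le (inf_le_inf_right T inf_le_left)))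
  have hT : Member p b n T := by
    refine ⟨hTn, hTbig, fun A hA hm => ?_⟩
    by_contra hlt
    push Not at hlt
    obtain ⟨y, hyA, hyT, hyZ⟩ := hm
    obtain ⟨B', hB', hB'C, -, hCB'⟩ := H.cent y hyZ
    have h1 := card_le_mul_inf (le_centralizer_of_mem hA.2.1 hyA) hB'C hCB'
    have h2 := key y hyT hyZ B' hB'C hCB'
    have hm' : Meet B B' := by
      refine H.meet_of_meet hB hB4 hBTi ?_
      exact h2.trans (Nat.mul_le_mul_right _ (Nat.le_mul_of_pos_right b hb))
    have h3 : Nat.card B' ≤ b * Nat.card (B' ⊓ A : Subgroup G) := by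
      rw [inf_comm]
      exact (hTmax B' ⟨hB', hm'.symm⟩).trans (hlt.le.trans h1)
    have h4 := card_le_mul_inf_of_le (D := T ⊓ B') inf_le_right h3
    have h5 : Nat.card T ≤ b * b * Nat.card (T ⊓ A : Subgroup G) := by
      calc Nat.card T ≤ b * Nat.card (T ⊓ B' : Subgroup G) := h2
        _ ≤ b * (b * Nat.card (T ⊓ B' ⊓ A : Subgroup G)) := Nat.mul_le_mul_left b h4
        _ ≤ _ := by
          rw [mul_assoc]
          exact Nat.mul_le_mul_left b (Nat.mul_le_mul_left b
            (Subgroup.card_le_of_le (inf_le_inf_right A inf_le_left)))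
    exact absurd (hTmax A ⟨hA, (H.meet_of_meet hB hB4 hBTi h5).symm⟩) (not_le.2 hlt)
  refine ⟨core p b n T, ⟨T, hT, rfl⟩, ?_⟩
  have hnorm : Subgroup.centralizer ({x} : Set G) ≤
      Subgroup.normalizer (core p b n T : Set G) := by
    have hmap : ∀ g ∈ Subgroup.centralizer ({x} : Set G),
        (core p b n T).map (MulAut.conj g).toMonoidHom = core p b n T := by
      intro g hg
      have hgB : B.map (MulAut.conj g).toMonoidHom = B := by
        refine Subgroup.eq_of_le_of_card_ge ?_
          (by rw [Subgroup.card_map_of_injective (MulAut.conj g).injective])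
        rintro _ ⟨y, hy, rfl⟩
        exact hBn g hg y hy
      have h1 := H.card_le (hT.map_conj g) hB (by
        have := hTm.symm.map_conj g
        rwa [hgB] at this)
      rw [← core_map_conj]
      refine (H.core_eq hT (hT.map_conj g) ?_).symm
      refine meet_of_card ?_
      by_contra hle
      push Not at hle
      have h3 := card_le_mul_inf_of_le (D := B ⊓ T) (B := T.map (MulAut.conj g).toMonoidHom) inf_le_left h1
      have h4 : Nat.card (B ⊓ T ⊓ T.map (MulAut.conj g).toMonoidHom : Subgroup G) ≤ (Nat.card (Subgroup.center G)) :=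
        (Subgroup.card_le_of_le (inf_le_inf_right _ inf_le_right)).trans hle
      have h5 := hBTi.trans (Nat.mul_le_mul_left (b * b) (h3.trans (Nat.mul_le_mul_left (b * b) h4)))
      rw [← mul_assoc, show b * b * (b * b) = b * b * b * b by ring] at h5
      omega
    intro g hg
    rw [Subgroup.mem_normalizer_iff]
    intro y
    refine ⟨fun hy => ?_, fun hy => ?_⟩
    · rw [← hmap g hg]
      exact ⟨y, hy, rfl⟩
    · rw [← hmap g⁻¹ ((Subgroup.centralizer _).inv_mem hg), mem_map_conj, inv_inv]
      exact hy
  refine ⟨⟨hnorm (Subgroup.mem_centralizer_singleton_iff.2 rfl), ?_⟩, hnorm⟩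
  by_contra hle
  push Not at hle
  have h1 : (core p b n T).relIndex T ≤ idxE b n := by
    have := H.card_le_core hT
    rw [card_eq_relIndex_mul T (core p b n T), inf_eq_left.2 (H.core_le hT)] at this
    exact Nat.le_of_mul_le_mul_right this Nat.card_pos
  have h2 : Nat.card (B ⊓ T : Subgroup G) ≤
      idxE b n * Nat.card (core p b n T ⊓ Subgroup.centralizer {x} : Subgroup G) := by
    rw [card_eq_relIndex_mul (B ⊓ T) (core p b n T)]
    refine Nat.mul_le_mul ((Subgroup.relIndex_le_of_le_right inf_le_right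
      Subgroup.index_ne_zero_of_finite).trans h1) (Subgroup.card_le_of_le (le_inf inf_le_left ?_))
    exact inf_le_right.trans (inf_le_left.trans hBC)
  have h3 := hBTi.trans (Nat.mul_le_mul_left (b * b) (h2.trans (Nat.mul_le_mul_left _ hle)))
  rw [← mul_assoc, ← mul_assoc] at h3
  omega

theorem Hyp.attached_unique (H : Hyp G p b n F) {x : G} (hx : x ∉ Subgroup.center G)
    {E E' : Subgroup G} (hE : E ∈ family p b n) (hE' : E' ∈ family p b n)
    (h : x ∈ attached b n E) (h' : x ∈ attached b n E') : E = E' := by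
  classical
  obtain ⟨T, hT, rfl⟩ := hE
  obtain ⟨T', hT', rfl⟩ := hE'
  obtain ⟨B, hB, hBC, -, hCB⟩ := H.cent x hx
  have hb := H.b_pos
  have hB : Nice p B := hB
  have key : ∀ {T : Subgroup G}, Member p b n T → x ∈ attached b n (core p b n T) →
      Nat.card B ≤ b * b * Nat.card (B ⊓ T : Subgroup G) ∧ b * b * b * b * (Nat.card (Subgroup.center G)) < Nat.card B := by
    intro T hT h
    have h1 := card_le_mul_inf (A := core p b n T ⊓ Subgroup.centralizer {x}) inf_le_right hBC hCB
    have hat : b * (b * b * b * b) ≤ attC b n := by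
      have : b * (b * b * b * b) = b * b * b * b * b := by ring
      unfold attC; omega
    have h2 : b * b * b * b * (Nat.card (Subgroup.center G)) < Nat.card (core p b n T ⊓ Subgroup.centralizer {x} ⊓ B : Subgroup G) := by
      by_contra hle
      push Not at hle
      have h3 := h1.trans (Nat.mul_le_mul_left b hle)
      have h4 := Nat.mul_le_mul_right (Nat.card (Subgroup.center G)) hat
      have h5 : attC b n * (Nat.card (Subgroup.center G)) <
          Nat.card (core p b n T ⊓ Subgroup.centralizer {x} : Subgroup G) := h.2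
      rw [← mul_assoc] at h3
      omega
    have h3 : b * b * b * b * (Nat.card (Subgroup.center G)) < Nat.card B := h2.trans_le (Subgroup.card_le_of_le inf_le_right)
    refine ⟨H.card_le hT hB (meet_of_card ?_), h3⟩
    refine (lt_of_le_of_lt ?_ h2).trans_le (Subgroup.card_le_of_le
      (le_inf inf_le_right (inf_le_left.trans (inf_le_left.trans (H.core_le hT)))))
    exact Nat.le_mul_of_pos_left _ (by positivity)
  obtain ⟨hT1, hbig⟩ := key hT h
  obtain ⟨hT2, -⟩ := key hT' h'
  refine H.core_eq hT hT' (meet_of_card ?_)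
  by_contra hle
  push Not at hle
  have h3 := card_le_mul_inf_of_le (D := B ⊓ T) (B := T') inf_le_left hT2
  have h4 : Nat.card (B ⊓ T ⊓ T' : Subgroup G) ≤ (Nat.card (Subgroup.center G)) :=
    (Subgroup.card_le_of_le (inf_le_inf_right _ inf_le_right)).trans hle
  have h5 := hT1.trans (Nat.mul_le_mul_left (b * b) (h3.trans (Nat.mul_le_mul_left (b * b) h4)))
  rw [← mul_assoc, show b * b * (b * b) = b * b * b * b by ring] at h5
  omega

end CfsgLib.ModularJordan
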