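import Cfsg.Agent.ModularJordan.Abstract
import Mathlib.Algebra.BigOperators.Group.Finset.Basic
import Mathlib.GroupTheory.Coset.Card
import Mathlib.Data.Fintype.EquivFin
import Mathlib.Algebra.BigOperators.Ring.Finset

/-!
# The class equation in Jordan's argument
-/

set_option autoImplicit false

namespace CfsgLib.ModularJordan

universe u v

open Finset

/-- Orbit-stabiliser for an action given as a function. -/
theorem card_eq_image_mul {G : Type u} [Group G] [Fintype G] {α : Type v} [DecidableEq α]
    (act : G → α → α) (h1 : ∀ a, act 1 a = a) (hm : ∀ g h a, act (g * h) a = act g (act h a))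
    (a : α) : Fintype.card G = (univ.image fun g => act g a).card *
      (univ.filter fun g => act g a = a).card := by
  rw [← Finset.card_univ, Finset.card_eq_sum_card_image (fun g => act g a) univ,
    Finset.sum_const_nat fun b hb => ?_]
  obtain ⟨g₀, -, rfl⟩ := Finset.mem_image.1 hb
  refine Finset.card_bij' (fun g _ => g₀⁻¹ * g) (fun g _ => g₀ * g) ?_ ?_ ?_ ?_
  · intro g hg
    simp only [Finset.mem_filter, Finset.mem_univ, true_and] at hg ⊢
    rw [hm, hg, ← hm, inv_mul_cancel, h1]
  · intro g hg
    simp only [Finset.mem_filter, Finset.mem_univ, true_and] at hg ⊢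
    rw [hm, hg]
  · intro g _; simp
  · intro g _; simp

/-- An invariant weighted sum is divisible by the group order. -/
theorem dvd_sum_invariant {G : Type u} [Group G] [Fintype G] {α : Type v} [DecidableEq α]
    (act : G → α → α) (h1 : ∀ a, act 1 a = a) (hm : ∀ g h a, act (g * h) a = act g (act h a))
    (w : α → ℕ) (hw : ∀ g a, w (act g a) = w a) (D : ℕ) :
    ∀ s : Finset α, (∀ g, ∀ a ∈ s, act g a ∈ s) →
      (∀ a ∈ s, (univ.filter fun g => act g a = a).card ∣ D * w a) →
      Fintype.card G ∣ D * ∑ a ∈ s, w a := by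
  intro s
  induction s using Finset.strongInduction with
  | _ s ih =>
  intro hs hdiv
  rcases s.eq_empty_or_nonempty with rfl | ⟨a, ha⟩
  · simp
  set O := univ.image fun g => act g a with hO
  have hOs : O ⊆ s := by
    intro b hb
    obtain ⟨g, -, rfl⟩ := Finset.mem_image.1 hb
    exact hs g a ha
  have haO : a ∈ O := Finset.mem_image.2 ⟨1, Finset.mem_univ _, h1 a⟩
  rw [← Finset.sum_sdiff hOs, mul_add]
  refine dvd_add (ih (s \ O) ?_ ?_ ?_) ?_
  · exact Finset.sdiff_ssubset hOs ⟨a, haO⟩
  · intro g b hb
    rw [Finset.mem_sdiff] at hb ⊢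
    refine ⟨hs g b hb.1, fun h => hb.2 ?_⟩
    obtain ⟨g', -, hg'⟩ := Finset.mem_image.1 h
    refine Finset.mem_image.2 ⟨g⁻¹ * g', Finset.mem_univ _, ?_⟩
    rw [hm, hg', ← hm, inv_mul_cancel, h1]
  · exact fun b hb => hdiv b (Finset.mem_sdiff.1 hb).1
  · have hsum : ∑ b ∈ O, w b = O.card * w a := by
      rw [Finset.sum_const_nat fun b hb => ?_]
      obtain ⟨g, -, rfl⟩ := Finset.mem_image.1 hb
      exact hw g a
    obtain ⟨k, hk⟩ := hdiv a ha
    refine ⟨k, ?_⟩
    rw [hsum, card_eq_image_mul act h1 hm a, ← hO, mul_left_comm, hk]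
    ring

/-- A set invariant under right multiplication by a subgroup. -/
theorem ncard_eq_card_mul {G : Type u} [Group G] [Finite G] (E : Subgroup G) (s : Set G)
    (hs : ∀ x ∈ s, ∀ e ∈ E, x * e ∈ s) :
    s.ncard = Nat.card E * ((QuotientGroup.mk : G → G ⧸ E) '' s).ncard := by
  have h : (QuotientGroup.mk : G → G ⧸ E) ⁻¹' (QuotientGroup.mk '' s) = s := by
    refine Set.Subset.antisymm ?_ (Set.subset_preimage_image _ _)
    rintro x ⟨y, hy, hxy⟩
    have := hs y hy _ (QuotientGroup.eq.1 hxy)
    rwa [mul_inv_cancel_left] at this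
  conv_lhs => rw [← h]
  rw [← Nat.card_coe_set_eq, Nat.card_congr (QuotientGroup.preimageMkEquivSubgroupProdSet E _),
    Nat.card_prod, Nat.card_coe_set_eq]

variable {G : Type u} [Group G] [Finite G] {p b n F : ℕ}

/-- The bound on normalizers. -/
def autC (b n F : ℕ) : ℕ := F * b * idxE b n

/-- The denominator for a threshold. -/
def denom (b n F c : ℕ) : ℕ := (n * max (smallK b n) (autC b n F * c) + autC b n F).factorial

/-- The thresholds. -/
def thresh (b n F : ℕ) : ℕ → ℕ
  | 0 => attC b n + 2
  | i + 1 => 2 * denom b n F (thresh b n F i) + thresh b n F i + 1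

/-- The final bound. -/
def jordanBound (b n F : ℕ) : ℕ :=
  autC b n F + denom b n F (thresh b n F (2 * autC b n F + 1)) + 1

omit [Finite G] in
theorem le_thresh : ∀ i, attC b n + 2 ≤ thresh b n F i
  | 0 => le_rfl
  | i + 1 => by rw [thresh]; have := le_thresh i; omega

omit [Finite G] in
theorem thresh_mono {i j : ℕ} (h : i ≤ j) : thresh b n F i ≤ thresh b n F j := by
  induction j, h using Nat.le_induction with
  | base => exact le_rfl
  | succ k _ ih => rw [thresh]; omega

omit [Finite G] in
theorem denom_mono {c c' : ℕ} (h : c ≤ c') : denom b n F c ≤ denom b n F c' :=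
  Nat.factorial_le (Nat.add_le_add_right (Nat.mul_le_mul_left n
    (max_le_max le_rfl (Nat.mul_le_mul_left _ h))) _)

/-- Conjugation on subgroups. -/
def cjS (g : G) (E : Subgroup G) : Subgroup G := E.map (MulAut.conj g).toMonoidHom

omit [Finite G] in
theorem cjS_one (E : Subgroup G) : cjS 1 E = E := by
  ext x; rw [cjS, mem_map_conj]; simp

omit [Finite G] in
theorem cjS_mul (g h : G) (E : Subgroup G) : cjS (g * h) E = cjS g (cjS h E) := by
  ext x; rw [cjS, cjS, cjS, mem_map_conj, mem_map_conj, mem_map_conj]; simp [mul_assoc]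

omit [Finite G] in
theorem cjS_eq_iff (g : G) (E : Subgroup G) :
    cjS g E = E ↔ g ∈ Subgroup.normalizer (E : Set G) := by
  rw [Subgroup.mem_normalizer_iff]
  constructor
  · intro h y
    have h1 : g * y * g⁻¹ ∈ cjS g E ↔ y ∈ E := by rw [cjS, mem_map_conj]; simp [mul_assoc]
    rw [h] at h1
    exact h1.symm
  · intro h
    ext x
    rw [cjS, mem_map_conj, h]
    simp [mul_assoc]

theorem card_cjS (g : G) (E : Subgroup G) : Nat.card (cjS g E) = Nat.card E :=
  Subgroup.card_map_of_injective (MulAut.conj g).injective

theorem cjS_mem_family {g : G} {E : Subgroup G} (h : E ∈ family p b n) :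
    cjS g E ∈ family p b n := by
  obtain ⟨T, hT, rfl⟩ := h
  exact ⟨_, hT.map_conj g, core_map_conj T g⟩

omit [Finite G] in
theorem mem_attached_cjS (g x : G) (E : Subgroup G) :
    x ∈ attached b n (cjS g E) ↔ g⁻¹ * x * g ∈ attached b n E := by
  have h : (cjS g E ⊓ Subgroup.centralizer {x} : Subgroup G) =
      cjS g (E ⊓ Subgroup.centralizer {g⁻¹ * x * g}) := by
    ext y
    simp only [cjS, Subgroup.mem_inf, mem_map_conj, Subgroup.mem_centralizer_singleton_iff]
    refine and_congr_right fun _ => ?_
    constructor
    · intro h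
      calc g⁻¹ * y * g * (g⁻¹ * x * g) = g⁻¹ * (y * x) * g := by group
        _ = g⁻¹ * (x * y) * g := by rw [h]
        _ = g⁻¹ * x * g * (g⁻¹ * y * g) := by group
    · intro h
      calc y * x = g * (g⁻¹ * y * g * (g⁻¹ * x * g)) * g⁻¹ := by group
        _ = g * (g⁻¹ * x * g * (g⁻¹ * y * g)) * g⁻¹ := by rw [h]
        _ = x * y := by group
  simp only [attached, Set.mem_setOf_eq, h]
  rw [cjS, normalizer_map_conj, cjS, Subgroup.card_map_of_injective (MulAut.conj g).injective]

theorem ncard_attached_cjS (g : G) (E : Subgroup G) :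
    (attached b n (cjS g E)).ncard = (attached b n E).ncard := by
  have h : attached b n (cjS g E) = (fun x => g * x * g⁻¹) '' attached b n E := by
    ext x
    rw [mem_attached_cjS, Set.mem_image]
    exact ⟨fun h => ⟨_, h, by group⟩, fun ⟨y, hy, hyx⟩ => by subst hyx; simpa [mul_assoc] using hy⟩
  rw [h, Set.ncard_image_of_injective _ fun x y hxy => by simpa using hxy]

theorem subset_attached {E : Subgroup G} (hE : Nice p E)
    (hbig : attC b n * Nat.card (Subgroup.center G) < Nat.card E) {x : G} (hx : x ∈ E) :
    x ∈ attached b n E :=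
  ⟨Subgroup.le_normalizer hx, by rwa [inf_eq_left.2 (le_centralizer_of_mem hE.2.1 hx)]⟩

omit [Finite G] in
theorem attached_mul {E : Subgroup G} (hE : Nice p E) {x e : G} (hx : x ∈ attached b n E)
    (he : e ∈ E) : x * e ∈ attached b n E := by
  refine ⟨(Subgroup.normalizer _).mul_mem hx.1 (Subgroup.le_normalizer he), ?_⟩
  have h : (E ⊓ Subgroup.centralizer {x * e} : Subgroup G) = E ⊓ Subgroup.centralizer {x} := by
    ext y
    simp only [Subgroup.mem_inf, Subgroup.mem_centralizer_singleton_iff]
    refine and_congr_right fun hy => ?_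
    constructor
    · intro h
      refine mul_right_cancel (b := e) ?_
      calc y * x * e = y * (x * e) := mul_assoc _ _ _
        _ = x * e * y := h
        _ = x * (y * e) := by rw [mul_assoc, hE.2.1 e he y hy]
        _ = x * y * e := (mul_assoc _ _ _).symm
    · intro h
      rw [← mul_assoc, h, mul_assoc, hE.2.1 y hy e he, ← mul_assoc]
  rw [h]
  exact hx.2

theorem Hyp.family_nice (H : Hyp G p b n F) {E : Subgroup G} (hE : E ∈ family p b n) : Nice p E := by
  obtain ⟨T, hT, rfl⟩ := hE
  exact H.core_nice hT

theorem Hyp.family_normalizer (H : Hyp G p b n F) {E : Subgroup G} (hE : E ∈ family p b n) :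
    Nat.card (Subgroup.normalizer (E : Set G)) ≤ autC b n F * Nat.card E := by
  obtain ⟨T, hT, rfl⟩ := hE
  exact H.card_normalizer hT

theorem Hyp.autC_pos (H : Hyp G p b n F) : 1 ≤ autC b n F := by
  have h := H.norm (Subgroup.center G)
    ⟨le_rfl, fun a ha c _ => (Subgroup.mem_center_iff.1 ha c).symm, H.center_coprime⟩
  rcases Nat.eq_zero_or_pos F with hF | hF
  · subst hF
    simp at h
    exact absurd h Nat.card_pos.ne'
  · exact Nat.mul_pos (Nat.mul_pos hF H.b_pos) one_le_idxE

theorem dvd_arith {g z D k S A : ℕ} (hD : 0 < D) (hz : 0 < z) (hsum : g + k * z = z + S + A) (hS : g ∣ D * S)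
    (hA : g ∣ D * A) (hk : 2 ≤ k) : g ≤ D * k * z := by
  have h1 : D * g + D * (k * z) = D * z + D * S + D * A := by rw [← mul_add, hsum]; ring
  have h2 : g ∣ D * (k * z) - D * z := by
    have e : D * (k * z) - D * z = D * S + D * A - D * g := by
      have : D * z ≤ D * (k * z) := Nat.mul_le_mul_left D (Nat.le_mul_of_pos_left z (by omega))
      omega
    rw [e]
    exact Nat.dvd_sub (dvd_add hS hA) (dvd_mul_left g D)
  rcases Nat.eq_zero_or_pos (D * (k * z) - D * z) with h3 | h3
  · exfalso
    rw [Nat.sub_eq_zero_iff_le] at h3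
    have h4 : 2 * (D * z) ≤ D * (k * z) := by
      rw [mul_left_comm]
      exact Nat.mul_le_mul_left D (Nat.mul_le_mul_right z hk)
    have := Nat.mul_pos hD hz
    omega
  · have := Nat.le_of_dvd h3 h2
    rw [mul_assoc]
    omega

/-- Jordan's argument. -/
theorem Hyp.exists_abelian_normal (H : Hyp G p b n F) :
    ∃ A : Subgroup G, A.Normal ∧ (∀ x ∈ A, ∀ y ∈ A, x * y = y * x) ∧
      (Nat.card A).Coprime p ∧ A.index ≤ jordanBound b n F := by
  classical
  haveI := Fintype.ofFinite G
  set Z := Subgroup.center G with hZ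
  set z := Nat.card (Subgroup.center G) with hz
  have hz1 : 0 < z := Nat.card_pos
  set fam := (Set.toFinite (family (G := G) p b n)).toFinset with hfam
  set aC := autC b n F with haC
  have hfamcl : ∀ g, ∀ E ∈ fam, cjS g E ∈ fam := fun g E hE => by
    rw [hfam, Set.Finite.mem_toFinset] at hE ⊢
    exact cjS_mem_family hE
  let att : Subgroup G → Finset G := fun E => univ.filter fun x => x ∈ attached b n E ∧ x ∉ Z
  have hattE : ∀ E ∈ fam, attC b n * z < Nat.card E →
      (attached b n E).ncard = (att E).card + z ∧ Nat.card E ≤ (att E).card + z := by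
    intro E hE hbig
    rw [hfam, Set.Finite.mem_toFinset] at hE
    have hN := H.family_nice hE
    have h1 : (attached b n E).ncard = (att E).card + z := by
      rw [← Set.ncard_inter_add_ncard_sdiff_eq_ncard (attached b n E) (Z : Set G) (Set.toFinite _),
        add_comm]
      congr 1
      · rw [← Set.ncard_coe_finset]
        congr 1
        ext x
        simp [att]
      · rw [Set.inter_eq_right.2 fun x hx => subset_attached hN hbig (hN.1 hx),
          ← Nat.card_coe_set_eq]
        rfl
    refine ⟨h1, h1 ▸ ?_⟩
    rw [← Nat.card_coe_set_eq]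
    exact Nat.card_mono (Set.toFinite _) fun x hx => subset_attached hN hbig hx
  have hattdisj : ((fam : Set (Subgroup G))).PairwiseDisjoint att := by
    intro E hE E' hE' hne
    rw [Function.onFun, Finset.disjoint_left]
    intro x hx hx'
    rw [Finset.mem_coe, hfam, Set.Finite.mem_toFinset] at hE hE'
    simp only [att, Finset.mem_filter] at hx hx'
    exact hne (H.attached_unique hx.2.2 hE hE' hx.2.1 hx'.2.1)
  have hcardN : ∀ E : Subgroup G, (univ.filter fun g => cjS g E = E).card =
      Nat.card (Subgroup.normalizer (E : Set G)) := fun E => by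
    rw [Nat.card_eq_fintype_card, Fintype.card_subtype]
    congr 1
    ext g
    simp only [Finset.mem_filter, Finset.mem_univ, true_and, cjS_eq_iff]
  -- a gap between two thresholds
  obtain ⟨i, hiN, hgap⟩ : ∃ i ≤ 2 * aC + 1, ∀ E ∈ fam, thresh b n F i * z < Nat.card E →
      thresh b n F (i + 1) * z < Nat.card E := by
    by_contra hne
    push Not at hne
    choose f hf1 hf2 hf3 using fun i : Fin (2 * aC + 2) => hne i (Nat.le_of_lt_succ i.2)
    let O : Fin (2 * aC + 2) → Finset (Subgroup G) := fun i => univ.image fun g => cjS g (f i)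
    have hOfam : ∀ i, O i ⊆ fam := fun i E hE => by
      obtain ⟨g, -, rfl⟩ := Finset.mem_image.1 hE
      exact hfamcl g _ (hf1 i)
    have hOcard : ∀ i, ∀ E ∈ O i, Nat.card E = Nat.card (f i) := fun i E hE => by
      obtain ⟨g, -, rfl⟩ := Finset.mem_image.1 hE
      exact card_cjS g _
    have hOdisj : (Set.univ : Set (Fin (2 * aC + 2))).PairwiseDisjoint O := by
      intro i _ j _ hne
      rw [Function.onFun, Finset.disjoint_left]
      intro E hi hj
      have h1 := (hOcard i E hi).symm.trans (hOcard j E hj)
      rcases Nat.lt_or_gt_of_ne (fun h : (i : ℕ) = j => hne (Fin.ext h)) with h | h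
      · have h3 := Nat.mul_le_mul_right z
          (thresh_mono (b := b) (n := n) (F := F) (show (i : ℕ) + 1 ≤ j from h))
        have := hf3 i
        have := hf2 j
        omega
      · have h3 := Nat.mul_le_mul_right z
          (thresh_mono (b := b) (n := n) (F := F) (show (j : ℕ) + 1 ≤ i from h))
        have := hf3 j
        have := hf2 i
        omega
    have hbigE : ∀ i, ∀ E ∈ O i, attC b n * z < Nat.card E ∧ 2 * z ≤ Nat.card E := fun i E hE => by
      rw [hOcard i E hE]
      have h3 := Nat.mul_le_mul_right z (le_thresh (b := b) (n := n) (F := F) i)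
      rw [add_mul] at h3
      have := hf2 i
      omega
    have key : ∀ i, Fintype.card G ≤ 2 * aC * ∑ E ∈ O i, (att E).card := by
      intro i
      have hfi := hf1 i
      have hfi' := hfi
      rw [hfam, Set.Finite.mem_toFinset] at hfi'
      have h1 := card_eq_image_mul cjS cjS_one cjS_mul (f i)
      rw [hcardN] at h1
      calc Fintype.card G = (O i).card * Nat.card (Subgroup.normalizer (f i : Set G)) := h1
        _ ≤ (O i).card * (aC * Nat.card (f i)) := Nat.mul_le_mul_left _ (H.family_normalizer hfi')
        _ = ∑ E ∈ O i, aC * Nat.card E := by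
          rw [Finset.sum_const_nat fun E hE => by rw [hOcard i E hE]]
        _ ≤ ∑ E ∈ O i, aC * (2 * (att E).card) := Finset.sum_le_sum fun E hE => by
          refine Nat.mul_le_mul_left aC ?_
          have := (hattE E (hOfam i hE) (hbigE i E hE).1).2
          have := (hbigE i E hE).2
          omega
        _ = 2 * aC * ∑ E ∈ O i, (att E).card := by
          rw [Finset.mul_sum]; exact Finset.sum_congr rfl fun E _ => by ring
    have htot : ∑ i, ∑ E ∈ O i, (att E).card ≤ Fintype.card G := by
      rw [← Finset.sum_biUnion (by simpa using hOdisj), ← Finset.card_biUnion]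
      · exact Finset.card_le_univ _
      · refine hattdisj.subset ?_
        intro E hE
        obtain ⟨i, -, hi⟩ := Finset.mem_biUnion.1 hE
        exact hOfam i hi
    have h1 : (2 * aC + 2) * Fintype.card G ≤ 2 * aC * Fintype.card G := by
      calc (2 * aC + 2) * Fintype.card G = ∑ _i : Fin (2 * aC + 2), Fintype.card G := by simp
        _ ≤ ∑ i, 2 * aC * ∑ E ∈ O i, (att E).card := Finset.sum_le_sum fun i _ => key i
        _ = 2 * aC * ∑ i, ∑ E ∈ O i, (att E).card := (Finset.mul_sum _ _ _).symm
        _ ≤ 2 * aC * Fintype.card G := Nat.mul_le_mul_left _ htot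
    have := Fintype.card_pos (α := G)
    rw [add_mul] at h1
    omega
  set c := thresh b n F i with hc
  set D := denom b n F c with hD
  have hattC : ∀ {m : ℕ}, c * z < m → attC b n * z < m ∧ 2 * z ≤ m := fun {m} hm => by
    have h3 := Nat.mul_le_mul_right z (le_thresh (b := b) (n := n) (F := F) i)
    rw [add_mul] at h3
    rw [← hc] at h3
    omega
  set big := fam.filter fun E : Subgroup G => c * z < Nat.card E with hbigdef
  have hbigcl : ∀ g, ∀ E ∈ big, cjS g E ∈ big := fun g E hE => by
    rw [hbigdef, Finset.mem_filter] at hE ⊢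
    exact ⟨hfamcl g E hE.1, by rw [card_cjS]; exact hE.2⟩
  set S := univ.filter fun x : G => x ∉ Z ∧ ∀ E ∈ big, x ∉ attached b n E with hS
  -- the class equation
  have hsum : Fintype.card G + big.card * z = z + S.card + ∑ E ∈ big, (attached b n E).ncard := by
    have h1 : ∑ E ∈ big, (attached b n E).ncard = (∑ E ∈ big, (att E).card) + big.card * z := by
      rw [← smul_eq_mul, ← Finset.sum_const, ← Finset.sum_add_distrib]
      refine Finset.sum_congr rfl fun E hE => ?_
      rw [hbigdef, Finset.mem_filter] at hE
      exact (hattE E hE.1 (hattC hE.2).1).1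
    have h2 : (univ : Finset G) = (univ.filter fun x => x ∈ Z) ∪ S ∪ big.biUnion att := by
      ext x
      simp only [Finset.mem_univ, Finset.mem_union, Finset.mem_biUnion, hS, att, Finset.mem_filter,
        true_and, true_iff]
      by_cases hx : x ∈ Z
      · exact Or.inl (Or.inl hx)
      by_cases h : ∃ E ∈ big, x ∈ attached b n E
      · obtain ⟨E, hE, hxE⟩ := h
        exact Or.inr ⟨E, hE, hxE, hx⟩
      · push Not at h
        exact Or.inl (Or.inr ⟨hx, h⟩)
    have hz' : (univ.filter fun x : G => x ∈ Z).card = z := by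
      rw [hz, Nat.card_eq_fintype_card, Fintype.card_subtype]
    rw [h1, ← Finset.card_univ, h2, Finset.card_union_of_disjoint, Finset.card_union_of_disjoint,
      hz', Finset.card_biUnion]
    · ring
    · exact hattdisj.subset fun E hE => (Finset.mem_filter.1 hE).1
    · rw [Finset.disjoint_left]
      intro x hx hxS
      exact (Finset.mem_filter.1 hxS).2.1 (Finset.mem_filter.1 hx).2
    · rw [Finset.disjoint_left]
      intro x hx hxU
      obtain ⟨E, hE, hxE⟩ := Finset.mem_biUnion.1 hxU
      simp only [att, Finset.mem_filter, Finset.mem_univ, true_and] at hxE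
      rcases Finset.mem_union.1 hx with h | h
      · exact hxE.2 (Finset.mem_filter.1 h).2
      · exact (Finset.mem_filter.1 h).2.2 E hE hxE.1
  have hDsmall : ∀ d : ℕ, 0 < d → d ≤ n * max (smallK b n) (aC * c) + aC → d ∣ D := fun d h1 h2 =>
    Nat.dvd_factorial h1 h2
  have hdvdA : Fintype.card G ∣ D * ∑ E ∈ big, (attached b n E).ncard := by
    refine dvd_sum_invariant cjS cjS_one cjS_mul _ (fun g E => ncard_attached_cjS g E) D big hbigcl
      fun E hE => ?_
    rw [hbigdef, Finset.mem_filter, hfam, Set.Finite.mem_toFinset] at hE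
    have hN := H.family_nice hE.1
    have h1 := card_eq_relIndex_mul (Subgroup.normalizer (E : Set G)) E
    rw [inf_eq_left.2 Subgroup.le_normalizer] at h1
    have h2 : E.relIndex (Subgroup.normalizer (E : Set G)) ≤ aC := by
      have := H.family_normalizer hE.1
      rw [h1] at this
      exact Nat.le_of_mul_le_mul_right this Nat.card_pos
    rw [hcardN, h1, ncard_eq_card_mul E (attached b n E) fun x hx e he => attached_mul hN hx he,
      ← mul_assoc D]
    exact Dvd.dvd.mul_right (Nat.mul_dvd_mul_right
      (hDsmall (E.relIndex (Subgroup.normalizer (E : Set G)))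
      (Nat.pos_of_ne_zero Subgroup.index_ne_zero_of_finite) (by omega)) _) _
  have hdvdS : Fintype.card G ∣ D * S.card := by
    have hSm : ∀ x ∈ (S : Set G), ∀ e ∈ Z, x * e ∈ (S : Set G) := by
      intro x hx e he
      simp only [Finset.mem_coe, hS, Finset.mem_filter, Finset.mem_univ, true_and] at hx ⊢
      refine ⟨fun h => hx.1 ?_, fun E hE h => hx.2 E hE ?_⟩
      · simpa using Z.mul_mem h (Z.inv_mem he)
      · have hN := H.family_nice (by simpa [hfam] using (Finset.mem_filter.1 hE).1)
        have := attached_mul hN h (hN.1 (Z.inv_mem he))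
        simpa using this
    have hSc : ∀ g x, x ∈ S → g * x * g⁻¹ ∈ S := by
      intro g x hx
      simp only [hS, Finset.mem_filter, Finset.mem_univ, true_and] at hx ⊢
      refine ⟨fun h => hx.1 (center_conj_iff.1 h), fun E hE h => hx.2 _ (hbigcl g⁻¹ E hE) ?_⟩
      rw [mem_attached_cjS, inv_inv]
      exact h
    have hsmall : ∀ x ∈ S, Nat.card (Subgroup.centralizer ({x} : Set G)) ≤
        max (smallK b n) (aC * c) * z := by
      intro x hx
      simp only [hS, Finset.mem_filter, Finset.mem_univ, true_and] at hx
      by_contra hlt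
      push Not at hlt
      obtain ⟨E, hE, hxE, hCN⟩ := H.exists_attached hx.1
        ((Nat.mul_le_mul_right z (le_max_left _ _)).trans_lt hlt)
      have hEc : Nat.card E ≤ c * z := by
        by_contra hEc
        exact hx.2 E (Finset.mem_filter.2 ⟨by simpa [hfam] using hE, not_le.1 hEc⟩) hxE
      have h1 := (Subgroup.card_le_of_le hCN).trans
        ((H.family_normalizer hE).trans (Nat.mul_le_mul_left aC hEc))
      rw [← mul_assoc] at h1
      have := Nat.mul_le_mul_right z (le_max_right (smallK b n) (aC * c))
      omega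
    haveI := Fintype.ofFinite (G ⧸ Z)
    let Sb : Finset (G ⧸ Z) := S.image (QuotientGroup.mk : G → G ⧸ Z)
    have h1 : S.card = z * Sb.card := by
      rw [← Set.ncard_coe_finset, ncard_eq_card_mul Z (S : Set G) hSm, ← hz,
        ← Finset.coe_image, Set.ncard_coe_finset]
    have h2 : Fintype.card (G ⧸ Z) ∣ D * ∑ _q ∈ Sb, 1 := by
      refine dvd_sum_invariant (fun g q => g * q * g⁻¹) (fun q => by simp)
        (fun g h q => by simp [mul_assoc]) (fun _ => 1) (fun _ _ => rfl) D Sb ?_ ?_
      · intro g q hq
        obtain ⟨x, hx, rfl⟩ := Finset.mem_image.1 hq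
        obtain ⟨g, rfl⟩ := QuotientGroup.mk_surjective g
        exact Finset.mem_image.2 ⟨g * x * g⁻¹, hSc g x hx, by simp⟩
      · intro q hq
        obtain ⟨x, hx, rfl⟩ := Finset.mem_image.1 hq
        rw [mul_one]
        have he : (univ.filter fun g : G ⧸ Z => g * (x : G ⧸ Z) * g⁻¹ = (x : G ⧸ Z)).card =
            Nat.card (Subgroup.centralizer {(x : G ⧸ Z)}) := by
          rw [Nat.card_eq_fintype_card, Fintype.card_subtype]
          congr 1
          ext g
          simp only [Finset.mem_filter, Finset.mem_univ, true_and,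
            Subgroup.mem_centralizer_singleton_iff, mul_inv_eq_iff_eq_mul]
        rw [he]
        refine hDsmall _ Nat.card_pos (le_add_right ?_)
        have h3 := H.comm x
        have h4 : Nat.card ((Subgroup.centralizer {(x : G ⧸ Z)}).comap (QuotientGroup.mk' Z)) =
            Nat.card (Subgroup.centralizer {(x : G ⧸ Z)}) * z := by
          have h5 := ncard_eq_card_mul Z ((QuotientGroup.mk : G → G ⧸ Z) ⁻¹'
            (Subgroup.centralizer {(x : G ⧸ Z)} : Set (G ⧸ Z))) fun y hy e he => by
              simp only [Set.mem_preimage, QuotientGroup.mk_mul, (QuotientGroup.eq_one_iff e).2 he,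
                mul_one] at hy ⊢
              exact hy
          rw [Set.image_preimage_eq _ QuotientGroup.mk_surjective, ← hz, mul_comm] at h5
          rw [← Nat.card_coe_set_eq, ← Nat.card_coe_set_eq] at h5
          exact h5
        rw [h4] at h3
        have h6 := h3.trans (Nat.mul_le_mul_left n (hsmall x hx))
        rw [← mul_assoc] at h6
        exact Nat.le_of_mul_le_mul_right h6 hz1
    rw [Finset.sum_const, smul_eq_mul, mul_one] at h2
    obtain ⟨k, hk⟩ := h2
    refine ⟨k, ?_⟩
    rw [h1, mul_left_comm, hk, ← mul_assoc]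
    congr 1
    rw [hz, ← Nat.card_eq_fintype_card, ← Nat.card_eq_fintype_card, mul_comm]
    exact (Subgroup.card_eq_card_quotient_mul_card_subgroup Z).symm
  have hcb : D ≤ denom b n F (thresh b n F (2 * aC + 1)) := denom_mono (thresh_mono hiN)
  rcases Nat.lt_or_ge big.card 2 with hk | hk
  · rcases (show big.card = 0 ∨ big.card = 1 by omega) with hk | hk
    · -- no big subgroup: small index of the centre
      refine ⟨Z, inferInstance, fun a ha c _ => (Subgroup.mem_center_iff.1 ha c).symm,
        H.center_coprime, ?_⟩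
      rw [Finset.card_eq_zero] at hk
      rw [hk] at hsum hdvdA
      simp only [Finset.card_empty, zero_mul, add_zero, Finset.sum_empty] at hsum
      have h1 : Fintype.card G ∣ D * z := by
        have h2 : Fintype.card G ∣ D * z + D * S.card := by
          rw [← mul_add, ← hsum]; exact dvd_mul_left _ _
        exact (Nat.dvd_add_left hdvdS).1 h2
      have h3 := Nat.le_of_dvd (Nat.mul_pos (show 0 < D from Nat.factorial_pos _) hz1) h1
      rw [← Nat.card_eq_fintype_card, ← Z.index_mul_card] at h3
      have h4 := Nat.le_of_mul_le_mul_right h3 hz1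
      unfold jordanBound
      rw [← haC]
      omega
    · obtain ⟨E, hE⟩ := Finset.card_eq_one.1 hk
      have hEf : E ∈ family p b n := by
        have : E ∈ big := by rw [hE]; simp
        simpa [hfam] using (Finset.mem_filter.1 this).1
      have hN := H.family_nice hEf
      have hnorm : Subgroup.normalizer (E : Set G) = ⊤ := by
        rw [eq_top_iff]
        intro g _
        rw [← cjS_eq_iff]
        have := hbigcl g E (by rw [hE]; simp)
        rw [hE, Finset.mem_singleton] at this
        exact this
      refine ⟨E, Subgroup.normalizer_eq_top_iff.1 hnorm, hN.2.1, hN.2.2, ?_⟩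
      have h1 := H.family_normalizer hEf
      rw [hnorm, Subgroup.card_top, ← E.index_mul_card] at h1
      have h2 := Nat.le_of_mul_le_mul_right h1 Nat.card_pos
      unfold jordanBound
      omega
  · exfalso
    have h1 : Fintype.card G ≤ D * big.card * z := dvd_arith (show 0 < D from Nat.factorial_pos _) hz1 hsum hdvdS hdvdA hk
    have h2 : big.card * (2 * D * z) ≤ Fintype.card G := by
      calc big.card * (2 * D * z) = ∑ _E ∈ big, 2 * D * z := by simp
        _ ≤ ∑ E ∈ big, (att E).card := Finset.sum_le_sum fun E hE => by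
          rw [hbigdef, Finset.mem_filter] at hE
          have h5 := hgap E hE.1 hE.2
          rw [thresh, ← hc, ← hD, add_mul, add_mul, one_mul] at h5
          have := (hattE E hE.1 (hattC hE.2).1).2
          omega
        _ ≤ Fintype.card G := by
          rw [← Finset.card_biUnion (hattdisj.subset fun E hE => (Finset.mem_filter.1 hE).1)]
          exact Finset.card_le_univ _
    have h3 : 0 < D * big.card * z := Nat.mul_pos (Nat.mul_pos (show 0 < D from Nat.factorial_pos _) (by omega)) hz1
    have h4 : big.card * (2 * D * z) = 2 * (D * big.card * z) := by ring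
    omega

end CfsgLib.ModularJordan
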