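import Cfsg.Agent.ModularJordan.Count
import Mathlib.LinearAlgebra.Eigenspace.Pi
import Mathlib.LinearAlgebra.Eigenspace.Semisimple
import Mathlib.LinearAlgebra.Eigenspace.Triangularizable
import Mathlib.LinearAlgebra.Determinant
import Mathlib.FieldTheory.Separable
import Mathlib.RepresentationTheory.Basic
import Mathlib.GroupTheory.Perm.Cycle.Type
import Mathlib.Algebra.CharP.Lemmas
import Mathlib.GroupTheory.Sylow
import Mathlib.Data.Fintype.BigOperators

/-!
# Modular Jordan theorem: the linear input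
-/

set_option autoImplicit false

namespace CfsgLib.ModularJordan

universe u v

open Module Polynomial

variable {G : Type u} [Group G] {F : Type v} [Field F] {V : Type v} [AddCommGroup V] [Module F V]
  [FiniteDimensional F V]

theorem apply_mul (ρ : Representation F G V) (g h : G) (v : V) : ρ (g * h) v = ρ g (ρ h v) := by
  rw [map_mul]; rfl

theorem apply_inv_self (ρ : Representation F G V) (g : G) (v : V) : ρ g⁻¹ (ρ g v) = v := by
  rw [← apply_mul, inv_mul_cancel, map_one]; rfl

/-- Simultaneous weights of an abelian subgroup of order prime to the characteristic. -/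
theorem exists_weights [Finite G] [IsAlgClosed F] {p : ℕ} [hp : Fact p.Prime] [CharP F p]
    (ρ : Representation F G V) (A : Subgroup G) (hab : ∀ a ∈ A, ∀ b ∈ A, a * b = b * a)
    (hco : (Nat.card A).Coprime p) :
    ∃ S : Finset (A → F), S.card ≤ finrank F V ∧
      (∀ χ, χ ∈ S ↔ ∃ v : V, v ≠ 0 ∧ ∀ a : A, ρ a v = χ a • v) ∧
      ∀ f g : V →ₗ[F] V, (∀ χ ∈ S, ∀ v : V, (∀ a : A, ρ a v = χ a • v) → f v = g v) → f = g := by
  classical
  set f : A → Module.End F V := fun a => ρ (a : G) with hf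
  have hcomm : ∀ a b : A, Commute (f a) (f b) := fun a b => by
    show ρ (a : G) * ρ (b : G) = ρ (b : G) * ρ (a : G)
    rw [← map_mul, ← map_mul, hab a a.2 b b.2]
  have hss : ∀ a : A, (f a).IsFinitelySemisimple := by
    intro a
    refine Module.End.IsSemisimple.isFinitelySemisimple ?_
    refine Module.End.isSemisimple_of_squarefree_aeval_eq_zero
      (p := X ^ Nat.card A - C (1 : F)) ?_ ?_
    · refine (separable_X_pow_sub_C (1 : F) ?_ one_ne_zero).squarefree
      rw [Ne, CharP.cast_eq_zero_iff F p]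
      exact fun h => hp.out.ne_one (Nat.eq_one_of_dvd_coprimes hco h dvd_rfl)
    · simp only [map_sub, map_pow, aeval_X, aeval_C, map_one]
      show ρ (a : G) ^ Nat.card A - 1 = 0
      rw [← map_pow, ← Subgroup.coe_pow, pow_card_eq_one', Subgroup.coe_one, map_one, sub_self]
  have heig : ∀ (a : A) (μ : F) (v : V), v ∈ (f a).maxGenEigenspace μ ↔ ρ a v = μ • v := by
    intro a μ v
    rw [(hss a).maxGenEigenspace_eq_eigenspace, Module.End.mem_eigenspace_iff]
  set W : (A → F) → Submodule F V := fun χ => ⨅ a, (f a).maxGenEigenspace (χ a) with hW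
  have hmem : ∀ χ v, v ∈ W χ ↔ ∀ a : A, ρ a v = χ a • v := fun χ v => by
    rw [hW, Submodule.mem_iInf]
    exact forall_congr' fun a => heig a _ v
  have hind : iSupIndep W := Module.End.independent_iInf_maxGenEigenspace_of_forall_mapsTo f
    fun i j φ => Module.End.mapsTo_maxGenEigenspace_of_comm (hcomm j i) φ
  have htop : ⨆ χ : A → F, W χ = ⊤ := Module.End.iSup_iInf_maxGenEigenspace_eq_top_of_forall_mapsTo f
    (fun i j φ => Module.End.mapsTo_maxGenEigenspace_of_comm (hcomm j i) φ)
    (fun a => Module.End.iSup_maxGenEigenspace_eq_top (f a))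
  haveI : Fintype {χ // W χ ≠ ⊥} := hind.fintypeNeBotOfFiniteDimensional
  refine ⟨(Finset.univ : Finset {χ // W χ ≠ ⊥}).map ⟨Subtype.val, Subtype.val_injective⟩, ?_, ?_, ?_⟩
  · rw [Finset.card_map, Finset.card_univ]
    exact hind.subtype_ne_bot_le_finrank
  · intro χ
    simp only [Finset.mem_map, Finset.mem_univ, true_and, Function.Embedding.coeFn_mk,
      Subtype.exists, exists_prop, exists_eq_right]
    rw [Submodule.ne_bot_iff]
    constructor
    · rintro ⟨v, hv, hv0⟩; exact ⟨v, hv0, (hmem χ v).1 hv⟩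
    · rintro ⟨v, hv0, hv⟩; exact ⟨v, (hmem χ v).2 hv, hv0⟩
  · intro φ ψ h
    have hle : (⊤ : Submodule F V) ≤ LinearMap.eqLocus φ ψ := by
      rw [← htop, iSup_le_iff]
      intro χ
      by_cases hχ : W χ = ⊥
      · rw [hχ]; exact bot_le
      · intro v hv
        exact h χ (Finset.mem_map.2 ⟨⟨χ, hχ⟩, Finset.mem_univ _, rfl⟩) v ((hmem χ v).1 hv)
    exact LinearMap.ext fun v => hle Submodule.mem_top

/-- Roots of unity are few. -/
theorem card_roots_le [DecidableEq F] {r : ℕ} (hr : 0 < r) :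
    ∃ R : Finset F, R.card ≤ r ∧ ∀ x : F, x ^ r = 1 → x ∈ R :=
  ⟨(nthRoots r (1 : F)).toFinset, (Multiset.toFinset_card_le _).trans (card_nthRoots r 1),
    fun x hx => Multiset.mem_toFinset.2 ((mem_nthRoots hr).2 hx)⟩

theorem torsion_le [Finite G] [IsAlgClosed F] {p : ℕ} [Fact p.Prime] [CharP F p]
    (ρ : Representation F G V) (hinj : Function.Injective ρ) {A : Subgroup G}
    (hA : Nice p A) {r : ℕ} (hr : 0 < r) :
    Set.ncard {a : G | a ∈ A ∧ a ^ r = 1} ≤ r ^ finrank F V := by
  classical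
  obtain ⟨S, hScard, hS, hext⟩ := exists_weights ρ A hA.2.1 hA.2.2
  obtain ⟨R, hR, hRmem⟩ := card_roots_le (F := F) hr
  have hval : ∀ (a : {a : G | a ∈ A ∧ a ^ r = 1}) (χ : S), (χ : A → F) ⟨a, a.2.1⟩ ∈ R := by
    intro a χ
    refine hRmem _ ?_
    obtain ⟨v, hv0, hv⟩ := (hS χ).1 χ.2
    have hk : ∀ k : ℕ, ρ ((a : G) ^ k) v = (χ : A → F) ⟨a, a.2.1⟩ ^ k • v := by
      intro k
      induction k with
      | zero => simp
      | succ k ih =>
        rw [pow_succ', apply_mul, ih, map_smul, show ρ (a : G) v = _ from hv ⟨a, a.2.1⟩, smul_smul,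
          ← pow_succ]
    have h1 := hk r
    have h2 : ρ ((a : G) ^ r) v = v := by
      rw [show (a : G) ^ r = 1 from a.2.2, map_one]; rfl
    exact smul_left_injective F hv0 (show _ • v = (1 : F) • v by rw [one_smul, ← h1, h2])
  let φ : {a : G | a ∈ A ∧ a ^ r = 1} → (S → R) := fun a χ => ⟨_, hval a χ⟩
  have hφ : Function.Injective φ := by
    intro a b hab
    apply Subtype.ext
    refine hinj (hext _ _ fun χ hχ v hv => ?_)
    rw [show ρ (a : G) v = _ from hv ⟨a, a.2.1⟩, show ρ (b : G) v = _ from hv ⟨b, b.2.1⟩,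
      show χ ⟨a, a.2.1⟩ = χ ⟨b, b.2.1⟩ from congrArg Subtype.val (congrFun hab ⟨χ, hχ⟩)]
  rw [← Nat.card_coe_set_eq]
  refine (Nat.card_le_card_of_injective φ hφ).trans ?_
  rw [Nat.card_eq_fintype_card, Fintype.card_fun, Fintype.card_coe, Fintype.card_coe]
  exact (Nat.pow_le_pow_left hR _).trans (Nat.pow_le_pow_right hr hScard)

theorem norm_le [Finite G] [IsAlgClosed F] {p : ℕ} [Fact p.Prime] [CharP F p]
    (ρ : Representation F G V) (hinj : Function.Injective ρ) (hn : 1 ≤ finrank F V)
    {A : Subgroup G} (hA : Nice p A) :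
    Nat.card (Subgroup.normalizer (A : Set G)) ≤
      finrank F V ^ finrank F V * Nat.card (Subgroup.centralizer (A : Set G)) := by
  classical
  haveI := Fintype.ofFinite G
  obtain ⟨S, hScard, hS, hext⟩ := exists_weights ρ A hA.2.1 hA.2.2
  set N := Subgroup.normalizer (A : Set G)
  let cjA : N → A → A := fun g a => ⟨(g : G)⁻¹ * a * g, by
    have := (Subgroup.mem_normalizer_iff.1 (N.inv_mem g.2) (a : G)).1 a.2
    simpa using this⟩
  let Φ : N → (S → S) := fun g χ => ⟨fun a => (χ : A → F) (cjA g a), (hS _).2 (by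
    obtain ⟨v, hv0, hv⟩ := (hS χ).1 χ.2
    refine ⟨ρ (g : G) v, fun h => hv0 ?_, fun a => ?_⟩
    · have := apply_inv_self ρ (g : G) v
      rw [h, map_zero] at this
      exact this.symm
    · rw [← apply_mul, show (a : G) * (g : G) = (g : G) * (cjA g a : G) by
        show _ = (g : G) * ((g : G)⁻¹ * a * g)
        group, apply_mul, hv (cjA g a), map_smul])⟩
  have hfib : ∀ g h : N, Φ g = Φ h → ((h : G) * (g : G)⁻¹) ∈ Subgroup.centralizer (A : Set G) := by
    intro g h he
    rw [Subgroup.mem_centralizer_iff]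
    intro a ha
    have h1 : (cjA g ⟨a, ha⟩ : G) = cjA h ⟨a, ha⟩ := hinj (hext _ _ fun χ hχ v hv => by
      rw [hv, hv, show χ (cjA g ⟨a, ha⟩) = χ (cjA h ⟨a, ha⟩) from
        congrFun (congrArg Subtype.val (congrFun he ⟨χ, hχ⟩)) ⟨a, ha⟩])
    have h2 : (g : G)⁻¹ * a * g = (h : G)⁻¹ * a * h := h1
    calc a * ((h : G) * (g : G)⁻¹) = (h : G) * ((h : G)⁻¹ * a * h) * (g : G)⁻¹ := by group
      _ = (h : G) * ((g : G)⁻¹ * a * g) * (g : G)⁻¹ := by rw [h2]
      _ = (h : G) * (g : G)⁻¹ * a := by group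
  rw [Nat.card_eq_fintype_card, ← Finset.card_univ]
  refine (Finset.card_le_mul_card_image Finset.univ (Nat.card (Subgroup.centralizer (A : Set G)))
    (f := Φ) fun w hw => ?_).trans ?_
  · obtain ⟨g, -, rfl⟩ := Finset.mem_image.1 hw
    rw [Nat.card_eq_fintype_card, ← Finset.card_univ]
    refine Finset.card_le_card_of_injOn
      (fun h : N => if hh : Φ h = Φ g then (⟨(h : G) * (g : G)⁻¹, hfib g h hh.symm⟩ :
        Subgroup.centralizer (A : Set G)) else 1) (fun _ _ => Finset.mem_univ _) ?_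
    intro a ha c hc hac
    simp only [Finset.coe_filter, Finset.mem_univ, true_and, Set.mem_setOf_eq] at ha hc
    simp only [dif_pos ha, dif_pos hc] at hac
    exact Subtype.ext (mul_right_cancel (congrArg Subtype.val hac))
  · rw [mul_comm]
    refine Nat.mul_le_mul_right _ ((Finset.card_le_univ _).trans ?_)
    rw [Fintype.card_fun, Fintype.card_coe]
    exact (Nat.pow_le_pow_left hScard _).trans (Nat.pow_le_pow_right hn hScard)

/-- A proper nonzero invariant subspace through a non-scalar element's centralizer. -/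
theorem exists_invariant [IsAlgClosed F] [Nontrivial V] (ρ : Representation F G V) (x : G)
    (hx : ¬ ∃ μ : F, ∀ v, ρ x v = μ • v) :
    ∃ W : Submodule F V, W ≠ ⊥ ∧ W ≠ ⊤ ∧
      ∀ g ∈ Subgroup.centralizer ({x} : Set G), ∀ w ∈ W, ρ g w ∈ W := by
  obtain ⟨μ, hμ⟩ := Module.End.exists_eigenvalue (ρ x)
  refine ⟨Module.End.eigenspace (ρ x) μ, hμ, fun h => hx ⟨μ, fun v => ?_⟩, fun g hg w hw => ?_⟩
  · exact Module.End.mem_eigenspace_iff.1 (h ▸ Submodule.mem_top)
  · rw [Module.End.mem_eigenspace_iff] at hw ⊢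
    rw [← apply_mul, ← (Subgroup.mem_centralizer_singleton_iff.1 hg), apply_mul, hw, map_smul]

theorem comm_le [Finite G] (ρ : Representation F G V) (hinj : Function.Injective ρ)
    (hn : 1 ≤ finrank F V)
    (hscal : ∀ z ∈ Subgroup.center G, ∃ μ : F, ∀ v, ρ z v = μ • v) (x : G) :
    Nat.card ((Subgroup.centralizer {(x : G ⧸ Subgroup.center G)}).comap
      (QuotientGroup.mk' (Subgroup.center G))) ≤
      finrank F V * Nat.card (Subgroup.centralizer ({x} : Set G)) := by
  classical
  haveI := Fintype.ofFinite G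
  haveI : Nontrivial V := Module.nontrivial_of_finrank_pos (R := F) hn
  obtain ⟨v₀, hv₀⟩ := exists_ne (0 : V)
  set P := (Subgroup.centralizer {(x : G ⧸ Subgroup.center G)}).comap
    (QuotientGroup.mk' (Subgroup.center G))
  obtain ⟨R, hR, hRmem⟩ := card_roots_le (F := F) (show 0 < finrank F V from hn)
  have hZ : ∀ g : P, (g : G) * x * (g : G)⁻¹ * x⁻¹ ∈ Subgroup.center G := by
    intro g
    have h : (QuotientGroup.mk' (Subgroup.center G) (g : G)) * (x : G ⧸ Subgroup.center G) =
        (x : G ⧸ Subgroup.center G) * QuotientGroup.mk' (Subgroup.center G) (g : G) :=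
      Subgroup.mem_centralizer_singleton_iff.1 g.2
    rw [← QuotientGroup.eq_one_iff]
    simp only [QuotientGroup.mk_mul, QuotientGroup.mk_inv]
    rw [QuotientGroup.mk'_apply] at h
    rw [h, mul_inv_cancel_right, mul_inv_cancel]
  choose μ hμ using fun g : P => hscal _ (hZ g)
  have hμR : ∀ g : P, μ g ∈ R := by
    intro g
    refine hRmem _ ?_
    let d : G →* F := LinearMap.det.comp ρ
    have hd : d ((g : G) * x * (g : G)⁻¹ * x⁻¹) = 1 := by
      rw [map_mul, map_mul, map_mul, mul_right_comm (d g) (d x), ← map_mul, mul_inv_cancel,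
        map_one, one_mul, ← map_mul, mul_inv_cancel, map_one]
    have he : ρ ((g : G) * x * (g : G)⁻¹ * x⁻¹) = μ g • (1 : V →ₗ[F] V) :=
      LinearMap.ext fun v => hμ g v
    have : LinearMap.det (ρ ((g : G) * x * (g : G)⁻¹ * x⁻¹)) = 1 := hd
    rwa [he, LinearMap.det_smul, map_one, mul_one] at this
  rw [Nat.card_eq_fintype_card, ← Finset.card_univ]
  refine (Finset.card_le_mul_card_image Finset.univ (Nat.card (Subgroup.centralizer ({x} : Set G)))
    (f := μ) fun w hw => ?_).trans ?_
  · obtain ⟨g, -, rfl⟩ := Finset.mem_image.1 hw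
    have hfib : ∀ h : P, μ h = μ g → (g : G)⁻¹ * h ∈ Subgroup.centralizer ({x} : Set G) := by
      intro h he
      rw [Subgroup.mem_centralizer_singleton_iff]
      have h1 : (h : G) * x * (h : G)⁻¹ * x⁻¹ = (g : G) * x * (g : G)⁻¹ * x⁻¹ :=
        hinj (LinearMap.ext fun v => by rw [hμ h, hμ g, he])
      have h2 := mul_right_cancel h1
      calc (g : G)⁻¹ * h * x = (g : G)⁻¹ * ((h : G) * x * (h : G)⁻¹) * h := by group
        _ = (g : G)⁻¹ * ((g : G) * x * (g : G)⁻¹) * h := by rw [h2]
        _ = x * ((g : G)⁻¹ * h) := by group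
    rw [Nat.card_eq_fintype_card, ← Finset.card_univ]
    refine Finset.card_le_card_of_injOn
      (fun h : P => if hh : μ h = μ g then (⟨(g : G)⁻¹ * h, hfib h hh⟩ :
        Subgroup.centralizer ({x} : Set G)) else 1) (fun _ _ => Finset.mem_univ _) ?_
    intro a ha c hc hac
    simp only [Finset.coe_filter, Finset.mem_univ, true_and, Set.mem_setOf_eq] at ha hc
    simp only [dif_pos ha, dif_pos hc] at hac
    exact Subtype.ext (mul_left_cancel (congrArg Subtype.val hac))
  · rw [mul_comm]
    refine Nat.mul_le_mul_right _ ?_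
    refine le_trans (Finset.card_le_card (fun w hw => ?_)) hR
    obtain ⟨g, -, rfl⟩ := Finset.mem_image.1 hw
    exact hμR g

/-- In characteristic `p` an element acting unipotently of depth two has order `p`. -/
theorem pow_char_eq_one {p : ℕ} [hp : Fact p.Prime] [CharP F p] (ρ : Representation F G V)
    (hinj : Function.Injective ρ) (W : Submodule F V) {g : G}
    (h1 : ∀ w ∈ W, ρ g w = w) (h2 : ∀ v, ρ g v - v ∈ W) : g ^ p = 1 := by
  refine hinj (LinearMap.ext fun v => ?_)
  have hk : ∀ k : ℕ, ρ (g ^ k) v = v + (k : F) • (ρ g v - v) := by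
    intro k
    induction k with
    | zero => simp
    | succ k ih =>
      rw [pow_succ', apply_mul, ih, map_add, map_smul, h1 _ (h2 v), Nat.cast_succ, add_smul, one_smul]
      abel
  rw [hk p, CharP.cast_eq_zero F p, zero_smul, add_zero, map_one]
  rfl

end CfsgLib.ModularJordan
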