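import Cfsg.Agent.ModularJordan.Linear
import Mathlib.GroupTheory.GroupAction.ConjAct
import Mathlib.GroupTheory.PGroup
import Mathlib.Data.Finite.Perm
import Mathlib.FieldTheory.IsAlgClosed.AlgebraicClosure
import Mathlib.Algebra.CharP.Algebra
import Mathlib.LinearAlgebra.Matrix.ToLin

/-!
# The modular Jordan theorem
-/

set_option autoImplicit false

namespace CfsgLib.ModularJordan

universe u v

open Module

/-- An abelian normal subgroup of order prime to `p` and index at most `bnd` exists in all linear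
groups of degree at most `n` with Sylow `p`-subgroups of order at most `p ^ m`. -/
def JordanBound (p n m bnd : ℕ) : Prop :=
  ∀ (G : Type u) [Group G] [Finite G] (F : Type v) [Field F] [IsAlgClosed F] [CharP F p]
    (V : Type v) [AddCommGroup V] [Module F V] [FiniteDimensional F V] (ρ : Representation F G V),
    Function.Injective ρ → finrank F V ≤ n → (Nat.card G).factorization p ≤ m →
    ∃ A : Subgroup G, A.Normal ∧ (∀ a ∈ A, ∀ b ∈ A, a * b = b * a) ∧ (Nat.card A).Coprime p ∧
      A.index ≤ bnd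

theorem coprime_card_of_orderOf {G : Type u} [Group G] [Finite G] {p : ℕ} [hp : Fact p.Prime]
    (A : Subgroup G) (h : ∀ a ∈ A, (orderOf a).Coprime p) : (Nat.card A).Coprime p := by
  rw [Nat.coprime_comm, hp.out.coprime_iff_not_dvd]
  intro hdvd
  obtain ⟨a, ha⟩ := exists_prime_orderOf_dvd_card' p hdvd
  have h1 := h a a.2
  rw [Subgroup.orderOf_coe, ha, Nat.coprime_self] at h1
  exact hp.out.ne_one h1

theorem coprime_orderOf_of_card {G : Type u} [Group G] [Finite G] {p : ℕ}
    {A : Subgroup G} (h : (Nat.card A).Coprime p) {a : G} (ha : a ∈ A) : (orderOf a).Coprime p :=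
  h.coprime_dvd_left (by rw [← Subgroup.orderOf_mk a ha]; exact orderOf_dvd_natCard _)

theorem factorization_le_of_dvd {a b p : ℕ} (hb : b ≠ 0) (h : a ∣ b) :
    a.factorization p ≤ b.factorization p :=
  (Nat.factorization_le_iff_dvd (fun ha => hb (by simpa [ha] using h)) hb).2 h p

theorem card_pgroup_le {p m k : ℕ} [hp : Fact p.Prime] {N : ℕ} (hN : N ≠ 0) (h : p ^ k ∣ N)
    (hm : N.factorization p ≤ m) : p ^ k ≤ p ^ m :=
  Nat.pow_le_pow_right hp.out.pos (((hp.out.pow_dvd_iff_le_factorization hN).1 h).trans hm)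

/-- The bound in the reducible case. -/
def redBound (p m b : ℕ) : ℕ := p ^ m * (b * b * (p ^ m).factorial) + 1

theorem commutator_pow {G : Type u} [Group G] {x y c : G} (hc : Commute x c)
    (h : x * y * x⁻¹ = c * y) : ∀ k : ℕ, x ^ k * y * (x ^ k)⁻¹ = c ^ k * y := by
  intro k
  induction k with
  | zero => simp
  | succ k ih =>
    calc x ^ (k + 1) * y * (x ^ (k + 1))⁻¹ = x * (x ^ k * y * (x ^ k)⁻¹) * x⁻¹ := by group
      _ = x * (c ^ k * y) * x⁻¹ := by rw [ih]
      _ = c ^ k * (x * y * x⁻¹) := by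
        rw [← mul_assoc, (hc.pow_right k).eq, mul_assoc, mul_assoc, ← mul_assoc x y]
      _ = c ^ (k + 1) * y := by rw [h, pow_succ, mul_assoc]

theorem lift_ker_injective {G : Type u} [Group G] {M : Type v} [Monoid M] (φ : G →* M) :
    Function.Injective (QuotientGroup.lift φ.ker φ le_rfl) := by
  intro a b h
  obtain ⟨x, rfl⟩ := QuotientGroup.mk_surjective a
  obtain ⟨y, rfl⟩ := QuotientGroup.mk_surjective b
  rw [QuotientGroup.lift_mk, QuotientGroup.lift_mk] at h
  rw [QuotientGroup.eq, MonoidHom.mem_ker, map_mul, ← h, ← map_mul, inv_mul_cancel, map_one]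

theorem exists_of_reducible {p n m b : ℕ} [hp : Fact p.Prime] (IH : JordanBound.{u, v} p n m b)
    {G : Type u} [Group G] [Finite G] {F : Type v} [Field F] [IsAlgClosed F] [CharP F p]
    {V : Type v} [AddCommGroup V] [Module F V] [FiniteDimensional F V] (ρ : Representation F G V)
    (hinj : Function.Injective ρ) (hn : finrank F V ≤ n + 1)
    (hm : (Nat.card G).factorization p ≤ m) {W : Submodule F V} (hbot : W ≠ ⊥) (htop : W ≠ ⊤)
    (hW : ∀ g : G, ∀ w ∈ W, ρ g w ∈ W) :
    ∃ A : Subgroup G, A.Normal ∧ (∀ a ∈ A, ∀ b ∈ A, a * b = b * a) ∧ (Nat.card A).Coprime p ∧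
      A.index ≤ redBound p m b := by
  classical
  let ρ1 : Representation F G W :=
    { toFun := fun g => (ρ g).restrict fun w hw => hW g w hw
      map_one' := by ext w; simp
      map_mul' := fun g h => by ext w; simp [LinearMap.restrict_apply] }
  let ρ2 : Representation F G (V ⧸ W) :=
    { toFun := fun g => W.mapQ W (ρ g) fun w hw => hW g w hw
      map_one' := by ext w; simp
      map_mul' := fun g h => by ext w; simp }
  have hd : ∀ (K : Subgroup G) [K.Normal], (Nat.card (G ⧸ K)).factorization p ≤ m := fun K _ =>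
    (factorization_le_of_dvd Nat.card_pos.ne' (Subgroup.card_quotient_dvd_card K)).trans hm
  have hfr := Submodule.finrank_quotient_add_finrank W
  have h1 : 0 < finrank F W := Nat.pos_of_ne_zero fun h => hbot (Submodule.finrank_eq_zero.1 h)
  have h2 : finrank F W < finrank F V := Submodule.finrank_lt htop
  obtain ⟨A1, hA1n, hA1c, -, hA1i⟩ := IH (G ⧸ (MonoidHom.ker ρ1)) F W
    (QuotientGroup.lift _ ρ1 le_rfl) (lift_ker_injective ρ1) (by omega) (hd _)
  obtain ⟨A2, hA2n, hA2c, -, hA2i⟩ := IH (G ⧸ (MonoidHom.ker ρ2)) F (V ⧸ W)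
    (QuotientGroup.lift _ ρ2 le_rfl) (lift_ker_injective ρ2) (by omega) (hd _)
  haveI := hA1n
  haveI := hA2n
  set K : Subgroup G := MonoidHom.ker ρ1 ⊓ MonoidHom.ker ρ2 with hK
  haveI : K.Normal := Subgroup.normal_inf_normal _ _
  have hKp : ∀ k ∈ K, k ^ p = 1 := by
    intro k hk
    refine pow_char_eq_one ρ hinj W (fun w hw => ?_) (fun x => ?_)
    · exact congrArg Subtype.val (LinearMap.congr_fun (MonoidHom.mem_ker.1 hk.1) ⟨w, hw⟩)
    · exact (Submodule.Quotient.eq W).1
        (LinearMap.congr_fun (MonoidHom.mem_ker.1 hk.2) (Submodule.Quotient.mk x))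
  have hKcard : Nat.card K ≤ p ^ m := by
    have hKP : IsPGroup p K := fun k => ⟨1, Subtype.ext (by simpa using hKp k k.2)⟩
    obtain ⟨e, he⟩ := IsPGroup.iff_card.1 hKP
    rw [he]
    exact card_pgroup_le Nat.card_pos.ne' (he ▸ Subgroup.card_subgroup_dvd_card K) hm
  set A1' : Subgroup G := A1.comap (QuotientGroup.mk' (MonoidHom.ker ρ1))
  set A2' : Subgroup G := A2.comap (QuotientGroup.mk' (MonoidHom.ker ρ2))
  haveI : A1'.Normal := hA1n.comap _
  haveI : A2'.Normal := hA2n.comap _
  set Z := Subgroup.centralizer (K : Set G) with hZ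
  haveI : Z.Normal := Subgroup.normal_centralizer
  set C : Subgroup G := A1' ⊓ A2' ⊓ Z
  have hcomm : ∀ x ∈ C, ∀ y ∈ C, x * y * x⁻¹ * y⁻¹ ∈ K := by
    intro x hx y hy
    refine ⟨?_, ?_⟩
    · refine (QuotientGroup.eq_one_iff _).1 ?_
      have := hA1c _ hx.1.1 _ hy.1.1
      simp only [QuotientGroup.mk'_apply] at this
      rw [QuotientGroup.mk_mul, QuotientGroup.mk_mul, QuotientGroup.mk_mul, this,
        QuotientGroup.mk_inv, QuotientGroup.mk_inv, mul_inv_cancel_right, mul_inv_cancel]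
    · refine (QuotientGroup.eq_one_iff _).1 ?_
      have := hA2c _ hx.1.2 _ hy.1.2
      simp only [QuotientGroup.mk'_apply] at this
      rw [QuotientGroup.mk_mul, QuotientGroup.mk_mul, QuotientGroup.mk_mul, this,
        QuotientGroup.mk_inv, QuotientGroup.mk_inv, mul_inv_cancel_right, mul_inv_cancel]
  have hab : ∀ x ∈ C, (orderOf x).Coprime p → ∀ y ∈ C, x * y = y * x := by
    intro x hx hxo y hy
    set c := x * y * x⁻¹ * y⁻¹ with hc
    have hcK : c ∈ K := hcomm x hx y hy
    have hxc : Commute x c := (Subgroup.mem_centralizer_iff.1 hx.2 c hcK).symm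
    have h := commutator_pow hxc (show x * y * x⁻¹ = c * y by rw [hc, inv_mul_cancel_right])
      (orderOf x)
    rw [pow_orderOf_eq_one, one_mul, inv_one, mul_one] at h
    have hr : c ^ orderOf x = 1 := by simpa using h
    have hc1 : c = 1 := by
      rw [← orderOf_eq_one_iff]
      exact Nat.eq_one_of_dvd_coprimes hxo (orderOf_dvd_of_pow_eq_one hr)
        (orderOf_dvd_of_pow_eq_one (hKp c hcK))
    rw [hc, mul_inv_eq_one, mul_inv_eq_iff_eq_mul] at hc1
    exact hc1
  let B : Subgroup G :=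
    { carrier := {x | x ∈ C ∧ (orderOf x).Coprime p}
      one_mem' := ⟨C.one_mem, by rw [orderOf_one]; exact Nat.coprime_one_left p⟩
      mul_mem' := fun {x y} hx hy => ⟨C.mul_mem hx.1 hy.1,
        (hx.2.mul_left hy.2).coprime_dvd_left
          ((Commute.orderOf_mul_dvd_lcm (hab x hx.1 hx.2 y hy.1)).trans (Nat.lcm_dvd_mul _ _))⟩
      inv_mem' := fun {x} hx => ⟨C.inv_mem hx.1, by rw [orderOf_inv]; exact hx.2⟩ }
  haveI hBn : B.Normal := ⟨fun x hx g => ⟨Subgroup.Normal.conj_mem inferInstance x hx.1 g, by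
    rw [← MulAut.conj_apply, MulEquiv.orderOf_eq]; exact hx.2⟩⟩
  refine ⟨B, hBn, fun a ha c hc => hab a ha.1 ha.2 c hc.1,
    coprime_card_of_orderOf B fun a ha => ha.2, ?_⟩
  have hBC : B ≤ C := fun x hx => hx.1
  have hCi : C.index ≤ b * b * (p ^ m).factorial := by
    refine Subgroup.index_inf_le.trans (Nat.mul_le_mul ?_ ?_)
    · refine Subgroup.index_inf_le.trans (Nat.mul_le_mul ?_ ?_) <;>
        rw [Subgroup.index_comap_of_surjective _ (QuotientGroup.mk'_surjective _)] <;> assumption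
    · have hker : (MulAut.conjNormal : G →* MulAut K).ker = Z := by
        ext g
        rw [MonoidHom.mem_ker, hZ, Subgroup.mem_centralizer_iff]
        constructor
        · intro h k hk
          have := congrArg Subtype.val (DFunLike.congr_fun h ⟨k, hk⟩)
          rw [MulAut.conjNormal_apply] at this
          exact (mul_inv_eq_iff_eq_mul.1 this).symm
        · intro h
          ext k
          rw [MulAut.conjNormal_apply, ← h k k.2, mul_inv_cancel_right]
          rfl
      rw [← hker, Subgroup.index_ker]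
      refine (Nat.card_le_card_of_injective (fun f : MonoidHom.range
        (MulAut.conjNormal : G →* MulAut K) => (f.1.toEquiv : Equiv.Perm K)) fun f g h =>
          Subtype.ext (MulEquiv.toEquiv_injective h)).trans ?_
      rw [Nat.card_perm]
      exact Nat.factorial_le hKcard
  have hrel : B.relIndex C ≤ p ^ m := by
    have hP : IsPGroup p (C ⧸ B.subgroupOf C) := by
      intro q
      obtain ⟨x, rfl⟩ := QuotientGroup.mk_surjective q
      refine ⟨(orderOf (x : G)).factorization p, ?_⟩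
      rw [← QuotientGroup.mk_pow, QuotientGroup.eq_one_iff]
      refine ⟨(C.pow_mem x.2 _), ?_⟩
      have hne : orderOf (x : G) ≠ 0 := (orderOf_pos _).ne'
      show (orderOf ((x : G) ^ _)).Coprime p
      rw [orderOf_pow_of_dvd (pow_ne_zero _ hp.out.ne_zero) (Nat.ordProj_dvd _ _)]
      exact (Nat.coprime_ordCompl hp.out hne).symm
    obtain ⟨e, he⟩ := IsPGroup.iff_card.1 hP
    have he' : B.relIndex C = p ^ e := he
    rw [he']
    refine card_pgroup_le Nat.card_pos.ne' ?_ hm
    rw [← he']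
    exact (Subgroup.relIndex_dvd_card B C).trans (Subgroup.card_subgroup_dvd_card C)
  rw [← Subgroup.relIndex_mul_index hBC]
  exact (Nat.mul_le_mul hrel hCi).trans (Nat.le_succ _)

/-- The induction step. -/
theorem JordanBound.succ {p n m b : ℕ} [hp : Fact p.Prime] (IH : JordanBound.{u, v} p n m b) :
    JordanBound.{u, v} p (n + 1) m
      (max (max b (redBound p m b)) (jordanBound (redBound p m b) (n + 1) ((n + 1) ^ (n + 1)))) := by
  intro G _ _ F _ _ _ V _ _ _ ρ hinj hn hm
  rcases Nat.lt_or_ge (finrank F V) (n + 1) with hlt | hge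
  · obtain ⟨A, h1, h2, h3, h4⟩ := IH G F V ρ hinj (Nat.le_of_lt_succ hlt) hm
    exact ⟨A, h1, h2, h3, h4.trans (by omega)⟩
  have hfr : finrank F V = n + 1 := le_antisymm hn hge
  haveI : Nontrivial V := Module.nontrivial_of_finrank_pos (R := F) (by omega)
  by_cases hred : ∃ W : Submodule F V, W ≠ ⊥ ∧ W ≠ ⊤ ∧ ∀ g : G, ∀ w ∈ W, ρ g w ∈ W
  · obtain ⟨W, hb, ht, hW⟩ := hred
    obtain ⟨A, h1, h2, h3, h4⟩ := exists_of_reducible IH ρ hinj hn hm hb ht hW
    exact ⟨A, h1, h2, h3, h4.trans (by omega)⟩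
  push Not at hred
  have hscal : ∀ z ∈ Subgroup.center G, ∃ μ : F, ∀ x, ρ z x = μ • x := by
    intro z hz
    by_contra hx
    obtain ⟨W, hb, ht, hW⟩ := exists_invariant ρ z hx
    obtain ⟨g, w, hw, hgw⟩ := hred W hb ht
    exact hgw (hW g (Subgroup.mem_centralizer_singleton_iff.2
      (Subgroup.mem_center_iff.1 hz g)) w hw)
  have hcc : (Nat.card (Subgroup.center G)).Coprime p := by
    rw [Nat.coprime_comm, hp.out.coprime_iff_not_dvd]
    intro hdvd
    obtain ⟨z, hz⟩ := exists_prime_orderOf_dvd_card' p hdvd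
    obtain ⟨μ, hμ⟩ := hscal z z.2
    obtain ⟨x, hx⟩ := exists_ne (0 : V)
    have hk : ∀ k : ℕ, ρ ((z : G) ^ k) x = μ ^ k • x := by
      intro k
      induction k with
      | zero => simp
      | succ k ih => rw [pow_succ', apply_mul, ih, map_smul, hμ, smul_smul, ← pow_succ]
    have hzp : (z : G) ^ p = 1 := by
      rw [← Subgroup.coe_pow, ← hz, pow_orderOf_eq_one, Subgroup.coe_one]
    have h1 := hk p
    rw [hzp, map_one] at h1
    have h2 : μ ^ p = 1 := smul_left_injective F hx (show μ ^ p • x = (1 : F) • x by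
      rw [one_smul, ← h1]; rfl)
    have h3 : μ = 1 := by
      have : (μ - 1) ^ p = 0 := by rw [sub_pow_char, h2, one_pow, sub_self]
      exact sub_eq_zero.1 (pow_eq_zero_iff hp.out.ne_zero |>.1 this)
    have h4 : (z : G) = 1 := hinj (LinearMap.ext fun y => by rw [hμ y, h3, one_smul, map_one]; rfl)
    rw [← Subgroup.orderOf_coe, h4, orderOf_one] at hz
    exact hp.out.ne_one hz.symm
  have H : Hyp G p (redBound p m b) (n + 1) ((n + 1) ^ (n + 1)) := by
    refine ⟨Nat.succ_pos _, Nat.succ_pos _, hcc, fun x hx => ?_,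
      fun A hA r hr => hfr ▸ torsion_le ρ hinj hA hr,
      fun A hA => hfr ▸ norm_le ρ hinj (by omega) hA,
      fun x => hfr ▸ comm_le ρ hinj (by omega) hscal x⟩
    obtain ⟨W, hb, ht, hW⟩ := exists_invariant ρ x (fun ⟨μ, hμ⟩ => hx (by
      rw [Subgroup.mem_center_iff]
      intro g
      exact hinj (LinearMap.ext fun y => by rw [apply_mul, apply_mul, hμ, hμ, map_smul])))
    set Cx := Subgroup.centralizer ({x} : Set G)
    obtain ⟨B0, hB0n, hB0c, hB0p, hB0i⟩ := exists_of_reducible IH
      (ρ.comp Cx.subtype) (hinj.comp Cx.subtype_injective) hn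
      ((factorization_le_of_dvd Nat.card_pos.ne' (Subgroup.card_subgroup_dvd_card Cx)).trans hm)
      hb ht fun g w hw => hW g g.2 w hw
    set B0' := B0.map Cx.subtype
    have hle : B0' ≤ Cx := Subgroup.map_subtype_le B0
    have hc0 : ∀ a ∈ B0', ∀ c ∈ B0', a * c = c * a := by
      rintro _ ⟨a, ha, rfl⟩ _ ⟨c, hc, rfl⟩
      exact congrArg Subtype.val (hB0c a ha c hc)
    have hp0 : (Nat.card B0').Coprime p := by
      rwa [Subgroup.card_map_of_injective Cx.subtype_injective]
    have hmem : ∀ a, a ∈ B0' ⊔ Subgroup.center G ↔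
        ∃ y ∈ B0', ∃ z ∈ Subgroup.center G, y * z = a := fun a =>
      Subgroup.mem_sup_of_normal_right
    refine ⟨B0' ⊔ Subgroup.center G, ⟨le_sup_right, ?_, ?_⟩, ?_, ?_, ?_⟩
    · intro a ha c hc
      obtain ⟨a1, ha1, a2, ha2, rfl⟩ := (hmem a).1 ha
      obtain ⟨c1, hc1, c2, hc2, rfl⟩ := (hmem c).1 hc
      rw [Subgroup.mem_center_iff] at ha2 hc2
      calc a1 * a2 * (c1 * c2) = a1 * (a2 * c1) * c2 := by group
        _ = (a1 * c1) * (a2 * c2) := by rw [← ha2 c1]; group
        _ = (c1 * a1) * (c2 * a2) := by rw [hc0 a1 ha1 c1 hc1, hc2 a2]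
        _ = c1 * (a1 * c2) * a2 := by group
        _ = c1 * c2 * (a1 * a2) := by rw [hc2 a1]; group
    · refine coprime_card_of_orderOf _ fun a ha => ?_
      obtain ⟨a1, ha1, a2, ha2, rfl⟩ := (hmem a).1 ha
      exact ((coprime_orderOf_of_card hp0 ha1).mul_left
        (coprime_orderOf_of_card hcc ha2)).coprime_dvd_left
        ((Commute.orderOf_mul_dvd_lcm (Subgroup.mem_center_iff.1 ha2 a1)).trans
          (Nat.lcm_dvd_mul _ _))
    · exact sup_le hle (Subgroup.center_le_centralizer _)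
    · intro g hg y hy
      obtain ⟨a, ha, z, hz, rfl⟩ := (hmem y).1 hy
      refine (hmem _).2 ⟨g * a * g⁻¹, ?_, z, hz, ?_⟩
      · obtain ⟨a', ha', rfl⟩ := ha
        exact ⟨_, hB0n.conj_mem a' ha' ⟨g, hg⟩, rfl⟩
      · rw [mul_assoc, Subgroup.mem_center_iff.1 hz g⁻¹]; group
    · refine le_trans (le_of_eq B0.index_mul_card.symm) (Nat.mul_le_mul hB0i ?_)
      rw [← Subgroup.card_map_of_injective Cx.subtype_injective]
      exact Subgroup.card_le_of_le le_sup_left
  obtain ⟨A, h1, h2, h3, h4⟩ := H.exists_abelian_normal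
  exact ⟨A, h1, h2, h3, h4.trans (le_max_right _ _)⟩

theorem exists_jordanBound (p : ℕ) [Fact p.Prime] (n m : ℕ) :
    ∃ bnd, JordanBound.{u, v} p n m bnd := by
  induction n with
  | zero =>
    refine ⟨1, fun G _ _ F _ _ _ V _ _ _ ρ hinj hn _ => ?_⟩
    haveI : Subsingleton V := Module.finrank_zero_iff.1 (Nat.le_zero.1 hn)
    haveI : Subsingleton G := ⟨fun a c => hinj (LinearMap.ext fun _ => Subsingleton.elim _ _)⟩
    refine ⟨⊥, inferInstance, fun a _ c _ => Subsingleton.elim _ _, ?_, ?_⟩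
    · rw [Subgroup.card_bot]; exact Nat.coprime_one_left p
    · rw [Subgroup.index_bot, Nat.card_unique]
  | succ n ih =>
    obtain ⟨b, hb⟩ := ih
    exact ⟨_, hb.succ⟩

/-- The modular Jordan theorem over an arbitrary field. -/
theorem exists_bound_general (p : ℕ) [Fact p.Prime] : ∃ f : ℕ → ℕ → ℕ, ∀ (G : Type u) [Group G]
    [Finite G] (F : Type v) [Field F] [CharP F p] (n : ℕ) (ρ : Representation F G (Fin n → F)),
    Function.Injective ρ → ∀ m : ℕ, (Nat.card G).factorization p = m →
      ∃ A : Subgroup G, A.Normal ∧ IsMulCommutative A ∧ A.index < f m n := by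
  refine ⟨fun m n => (exists_jordanBound.{u, v} p n m).choose + 1, ?_⟩
  intro G _ _ F _ _ n ρ hinj m hm
  let K := AlgebraicClosure F
  haveI : CharP K p := charP_of_injective_algebraMap (algebraMap F K).injective p
  let σ : Representation K G (Fin n → K) :=
    (LinearMap.toMatrixAlgEquiv'.symm.toMulEquiv.toMonoidHom.comp
      ((RingHom.mapMatrix (algebraMap F K)).toMonoidHom.comp
        (LinearMap.toMatrixAlgEquiv'.toMulEquiv.toMonoidHom.comp ρ)))
  have hσ : Function.Injective σ := fun a c h => hinj (LinearMap.toMatrixAlgEquiv'.injective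
    (Matrix.map_injective (algebraMap F K).injective (LinearMap.toMatrixAlgEquiv'.symm.injective h)))
  obtain ⟨A, h1, h2, -, h4⟩ := (exists_jordanBound.{u, v} p n m).choose_spec G K (Fin n → K) σ hσ
    (by rw [Module.finrank_fin_fun]) hm.le
  exact ⟨A, h1, ⟨⟨fun a c => Subtype.ext (h2 a a.2 c c.2)⟩⟩, Nat.lt_succ_of_le h4⟩

end CfsgLib.ModularJordan
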